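import Mathlib
import Cfsg.Prelude.Def_OddOrderLocal

/-!
Bender–Glauberman Corollary 12.6 (row 1418), helper78: conditional on BG Lemma 12.3 (row 1416) and
Theorem 12.5 (row 1417), both taken as hypotheses for the same group.
-/

set_option autoImplicit false

namespace Cfsg.Agent.Lib.Helper78.BG

/-- `M` normalizes `M_σ` (one-sided conjugation form). -/
theorem conj_mem_sigmaCore {G : Type*} [Group G] (M : Subgroup G) {y w : G} (hy : y ∈ M)
    (hw : w ∈ Cfsg.sigmaCore M) : y * w * y⁻¹ ∈ Cfsg.sigmaCore M := by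
  obtain ⟨w, hw, rfl⟩ := hw
  refine ⟨⟨y, hy⟩ * w * ⟨y, hy⟩⁻¹, ?_, rfl⟩
  exact (Cfsg.piCore_normal (Cfsg.sigma M) M).conj_mem w hw ⟨y, hy⟩

/-- `M` normalizes `M_σ`. -/
theorem le_normalizer_sigmaCore {G : Type*} [Group G] (M : Subgroup G) :
    M ≤ Subgroup.normalizer (Cfsg.sigmaCore M : Set G) := by
  intro x hx
  rw [Subgroup.mem_normalizer_iff]
  intro w
  constructor
  · exact conj_mem_sigmaCore M hx
  · intro h
    have := conj_mem_sigmaCore M (M.inv_mem hx) h
    simpa [mul_assoc] using this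

/-- In a simple non-abelian group the centralizer of a nontrivial subgroup is proper. -/
theorem centralizer_ne_top_of_simple {G : Type*} [Group G] (hs : IsSimpleGroup G)
    (hna : ¬ IsMulCommutative G) (X : Subgroup G) (hX : X ≠ ⊥) :
    Subgroup.centralizer (X : Set G) ≠ ⊤ := by
  haveI := hs
  intro h
  have hsub : (X : Set G) ⊆ Subgroup.center G := Subgroup.centralizer_eq_top_iff_subset.mp h
  rcases (inferInstance : (Subgroup.center G).Normal).eq_bot_or_eq_top with h' | h'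
  · apply hX
    rw [eq_bot_iff]
    intro x hx
    have := hsub hx
    rwa [SetLike.mem_coe, h'] at this
  · apply hna
    refine ⟨⟨fun a b => ?_⟩⟩
    have hb : b ∈ Subgroup.center G := h' ▸ Subgroup.mem_top b
    exact Subgroup.mem_center_iff.mp hb a

theorem s1418_core {G : Type*} [Group G] [Finite G] (hG : Cfsg.IsMinSimpleOddOrder G)
    (h1416 : ∀ (M : Subgroup G), IsCoatom M → ∀ (p : ℕ) [Fact p.Prime] (A : Subgroup G),
      (A ≤ M ∧ Cfsg.IsElementaryAbelian p A ∧ Nat.card A = p ^ 2) →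
      Subgroup.centralizer (A : Set G) ≤ M ∧
      ((∀ A₀ : Subgroup G, A₀ ≤ A → Nat.card A₀ = p →
          ¬ (Subgroup.normalizer (A₀ : Set G) ≤ M ∧ ∀ L : Subgroup G, IsCoatom L →
            Subgroup.normalizer (A₀ : Set G) ≤ L → L = M)) →
        p ∈ Cfsg.sigma M ∧ Cfsg.alphaCore M = ⊥ ∧ Group.IsNilpotent (Cfsg.sigmaCore M)))
    (h1417 : ∀ (M : Subgroup G), IsCoatom M → ∀ (p : ℕ) [Fact p.Prime], p ∈ Cfsg.tau2 M →
      ∀ (A : Subgroup G), (A ≤ M ∧ Cfsg.IsElementaryAbelian p A ∧ Nat.card A = p ^ 2) →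
      Group.IsNilpotent (Cfsg.sigmaCore M) ∧
      (∀ P : Sylow p M, IsMulCommutative (P : Subgroup M) ∧
        (A ≤ (P : Subgroup M).map M.subtype →
          (∀ x ∈ (P : Subgroup M).map M.subtype, x ^ p = 1 ↔ x ∈ A) ∧
          ¬ Subgroup.normalizer ((((P : Subgroup M).map M.subtype : Subgroup G)) : Set G) ≤ M)) ∧
      M ≤ Subgroup.normalizer ((Cfsg.sigmaCore M ⊔ A : Subgroup G) : Set G) ∧
      Cfsg.sigmaCore M ⊓ Subgroup.centralizer (A : Set G) = ⊥ ∧
      (∀ Mstar : Subgroup G, IsCoatom Mstar → Mstar ≠ M → A ≤ Mstar →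
        Cfsg.sigmaCore M ⊓ Mstar = ⊥) ∧
      ∃ A₁ : Subgroup G, A₁ ≤ A ∧ Nat.card A₁ = p ∧
        Cfsg.sigmaCore M ⊓ Subgroup.centralizer (A₁ : Set G) = ⊥)
    (M : Subgroup G) (hM : IsCoatom M) (E : Subgroup G)
    (hE : Cfsg.IsComplIn E (Cfsg.sigmaCore M) M) (p : ℕ) [Fact p.Prime] (hp : p ∈ Cfsg.tau2 M)
    (A : Subgroup G) (hA : (A ≤ E ∧ Cfsg.IsElementaryAbelian p A ∧ Nat.card A = p ^ 2)) :
    (E ≤ Subgroup.normalizer (A : Set G) ∧ ∀ X : Subgroup G, X ≤ E → Nat.card X = p → X ≤ A) ∧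
      (Subgroup.centralizer (A : Set G) ≤ M ⊓ Subgroup.normalizer (A : Set G) ∧
        M ⊓ Subgroup.normalizer (A : Set G) = E ∧
        ¬ Subgroup.normalizer (A : Set G) ≤ M) ∧
      ∀ X : Subgroup G, X ≤ A → Nat.card X = p →
        Cfsg.sigmaCore M ⊓ Subgroup.centralizer (X : Set G) ≠ ⊥ →
        (Subgroup.centralizer (X : Set G) ≤ M ∧ ∀ L : Subgroup G, IsCoatom L →
          Subgroup.centralizer (X : Set G) ≤ L → L = M) := by
  have hpp : p.Prime := Fact.out
  obtain ⟨hEM, hσM, hdisj, hprod⟩ := hE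
  obtain ⟨hAE, ⟨hAc, hAexp⟩, hAcard⟩ := hA
  have hAM : A ≤ M := hAE.trans hEM
  have hAea : (A ≤ M ∧ Cfsg.IsElementaryAbelian p A ∧ Nat.card A = p ^ 2) :=
    ⟨hAM, ⟨hAc, hAexp⟩, hAcard⟩
  obtain ⟨-, hb, hc, hd, he, -⟩ := h1417 M hM p hp A hAea
  have hCA : Subgroup.centralizer (A : Set G) ≤ M := (h1416 M hM p A hAea).1
  have hAp : IsPGroup p A := by
    intro a
    refine ⟨1, ?_⟩
    rw [pow_one]
    exact Subtype.ext (by simpa using hAexp a a.2)
  -- one-sided normalization of `A` by `E`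
  have hconj : ∀ e ∈ E, ∀ a ∈ A, e * a * e⁻¹ ∈ A := by
    intro e he' a ha
    have h1 : e * a * e⁻¹ ∈ Cfsg.sigmaCore M ⊔ A :=
      (Subgroup.mem_normalizer_iff.mp (hc (hEM he')) a).mp (Subgroup.mem_sup_right ha)
    have h2 : (e * a * e⁻¹) ∈ ((Cfsg.sigmaCore M ⊔ A : Subgroup G) : Set G) := h1
    rw [Subgroup.coe_mul_of_right_le_normalizer_left _ _
      (hAM.trans (le_normalizer_sigmaCore M))] at h2
    obtain ⟨n, hn, a', ha', hna'⟩ := h2
    have hna : n * a' = e * a * e⁻¹ := hna'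
    have hnE : n ∈ E := by
      have : n = e * a * e⁻¹ * a'⁻¹ := by rw [← hna]; group
      rw [this]
      exact E.mul_mem (E.mul_mem (E.mul_mem he' (hAE ha)) (E.inv_mem he')) (E.inv_mem (hAE ha'))
    have hn1 : n = 1 := by
      have : n ∈ E ⊓ Cfsg.sigmaCore M := ⟨hnE, hn⟩
      rwa [hdisj, Subgroup.mem_bot] at this
    rw [← hna, hn1, one_mul]
    exact ha'
  have hEN : E ≤ Subgroup.normalizer (A : Set G) := by
    intro e he'
    rw [Subgroup.mem_normalizer_iff]
    intro a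
    constructor
    · exact hconj e he' a
    · intro h
      have := hconj e⁻¹ (E.inv_mem he') _ h
      simpa [mul_assoc] using this
  -- a `p`-subgroup of `M` containing `A` has `A` as its elements of order dividing `p`
  have hsyl : ∀ Y : Subgroup G, IsPGroup p Y → Y ≤ M → A ≤ Y →
      ∃ P : Sylow p M, Y ≤ (P : Subgroup M).map M.subtype ∧
        (∀ x ∈ (P : Subgroup M).map M.subtype, x ^ p = 1 ↔ x ∈ A) ∧
        ¬ Subgroup.normalizer ((((P : Subgroup M).map M.subtype : Subgroup G)) : Set G) ≤ M := by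
    intro Y hYp hYM hAY
    obtain ⟨P, hP⟩ := (hYp.comap_subtype (K := M)).exists_le_sylow
    have hYP : Y ≤ (P : Subgroup M).map M.subtype := by
      intro y hy
      exact ⟨⟨y, hYM hy⟩, hP (show ((⟨y, hYM hy⟩ : M) : G) ∈ Y from hy), rfl⟩
    exact ⟨P, hYP, (hb P).2 (hAY.trans hYP)⟩
  refine ⟨⟨hEN, ?_⟩, ⟨le_inf hCA ?_, ?_, ?_⟩, ?_⟩
  · -- subgroups of order `p` of `E` lie in `A`
    intro X hXE hXcard
    have hXp : IsPGroup p X := IsPGroup.of_card (n := 1) (by rw [hXcard, pow_one])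
    have hXAp : IsPGroup p (X ⊔ A : Subgroup G) :=
      IsPGroup.to_sup_of_normal_right' hXp hAp (hXE.trans hEN)
    obtain ⟨P, hYP, hΩ, -⟩ := hsyl (X ⊔ A) hXAp (sup_le (hXE.trans hEM) hAM) le_sup_right
    intro x hx
    refine (hΩ x (hYP (Subgroup.mem_sup_left hx))).mp ?_
    have h1 : (⟨x, hx⟩ : X) ^ Nat.card X = 1 := pow_card_eq_one'
    rw [hXcard] at h1
    exact congrArg Subtype.val h1
  · -- `C(A) ≤ N(A)`
    intro g hg
    rw [Subgroup.mem_centralizer_iff] at hg
    rw [Subgroup.mem_normalizer_iff]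
    intro a
    constructor
    · intro ha
      have h1 : g * a * g⁻¹ = a := by rw [← hg a ha]; group
      rw [h1]; exact ha
    · intro ha
      have h1 := hg _ ha
      have h2 : a = g * a * g⁻¹ := by
        have h3 : g * a * g⁻¹ * g = g * (g * a * g⁻¹) := h1
        have h4 : g * a = g * (g * a * g⁻¹) := by rw [← h3]; group
        exact mul_left_cancel h4
      rw [h2]; exact ha
  · -- `N_M(A) = E`
    apply le_antisymm
    · rintro m ⟨hmM, hmN⟩
      obtain ⟨e, he', s, hs, rfl⟩ := hprod m hmM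
      have hsN : s ∈ Subgroup.normalizer (A : Set G) := by
        have := (Subgroup.normalizer (A : Set G)).mul_mem
          ((Subgroup.normalizer (A : Set G)).inv_mem (hEN he')) hmN
        simpa using this
      have hsC : s ∈ Subgroup.centralizer (A : Set G) := by
        rw [Subgroup.mem_centralizer_iff]
        intro a ha
        have h1 : s * a * s⁻¹ * a⁻¹ ∈ A :=
          A.mul_mem ((Subgroup.mem_normalizer_iff.mp hsN a).mp ha) (A.inv_mem ha)
        have h2 : s * a * s⁻¹ * a⁻¹ ∈ Cfsg.sigmaCore M := by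
          have h3 : s * a * s⁻¹ * a⁻¹ = s * (a * s⁻¹ * a⁻¹) := by group
          rw [h3]
          exact (Cfsg.sigmaCore M).mul_mem hs
            (conj_mem_sigmaCore M (hAM ha) ((Cfsg.sigmaCore M).inv_mem hs))
        have h4 : s * a * s⁻¹ * a⁻¹ ∈ E ⊓ Cfsg.sigmaCore M := ⟨hAE h1, h2⟩
        rw [hdisj, Subgroup.mem_bot] at h4
        have h5 : s * a = a * s := by
          calc s * a = (s * a * s⁻¹ * a⁻¹) * (a * s) := by group
            _ = a * s := by rw [h4, one_mul]
        exact h5.symm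
      have hs1 : s = 1 := by
        have : s ∈ Cfsg.sigmaCore M ⊓ Subgroup.centralizer (A : Set G) := ⟨hs, hsC⟩
        rwa [hd, Subgroup.mem_bot] at this
      rw [hs1, mul_one]
      exact he'
    · exact le_inf hEM hEN
  · -- `N(A) ⊄ M`
    intro hNA
    obtain ⟨P, hAP, hΩ, hnot⟩ := hsyl A hAp hAM le_rfl
    apply hnot
    refine le_trans ?_ hNA
    intro g hg
    rw [Subgroup.mem_normalizer_iff] at hg ⊢
    intro a
    constructor
    · intro ha
      have h1 := (hg a).mp (hAP ha)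
      refine (hΩ _ h1).mp ?_
      rw [conj_pow, hAexp a ha]
      group
    · intro h
      have h1 := (hg a).mpr (hAP h)
      refine (hΩ a h1).mp ?_
      have h2 := hAexp _ h
      rw [conj_pow] at h2
      exact conj_eq_one_iff.mp h2
  · intro X hXA hXcard hXne
    have hAC : A ≤ Subgroup.centralizer (X : Set G) := by
      intro a ha
      rw [Subgroup.mem_centralizer_iff]
      intro x hx
      have h1 := hAc.is_comm.comm (⟨x, hXA hx⟩ : A) ⟨a, ha⟩
      exact congrArg Subtype.val h1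
    have huniq : ∀ L : Subgroup G, IsCoatom L → Subgroup.centralizer (X : Set G) ≤ L →
        L = M := by
      intro L hL hCL
      by_contra hne
      have h1 := he L hL hne (hAC.trans hCL)
      apply hXne
      rw [eq_bot_iff, ← h1]
      exact inf_le_inf_left _ hCL
    have hX1 : X ≠ ⊥ := by
      intro h
      rw [h, Subgroup.card_bot] at hXcard
      exact hpp.one_lt.ne hXcard
    have hCtop := centralizer_ne_top_of_simple hG.2.1 hG.2.2.1 X hX1
    obtain ⟨L, hL, hCL⟩ := (eq_top_or_exists_le_coatom _).resolve_left hCtop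
    exact ⟨(huniq L hL hCL) ▸ hCL, huniq⟩

end Cfsg.Agent.Lib.Helper78.BG
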