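import Mathlib
import Cfsg.Prelude.Def_OddOrderLocal
import Cfsg.Agent.S3743

/-!
Auxiliary lemmas for Bender–Glauberman Theorem 10.2 (helper78): cores of quotients, Sylow
subgroups with normalizer inside a subgroup, and the focal subgroup argument.
-/

set_option autoImplicit false

namespace Cfsg.Agent.Lib.Helper78.BG

open scoped commutatorElement

/-- A normal `p`-subgroup of `H ⧸ O_π(H)` with `p ∈ π` is trivial. -/
theorem normal_pGroup_quot_piCore_eq_bot {H : Type*} [Group H] [Finite H] (π : Set ℕ) {p : ℕ}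
    [Fact p.Prime] (hp : p ∈ π) (Q : Subgroup (H ⧸ Cfsg.piCore π H)) (hQn : Q.Normal)
    (hQ : IsPGroup p Q) : Q = ⊥ := by
  have hC : Q.comap (QuotientGroup.mk' (Cfsg.piCore π H)) ≤ Cfsg.piCore π H := by
    refine le_sSup ⟨hQn.comap _, ?_⟩
    intro q hq hdvd
    by_cases hqp : q = p
    · exact hqp ▸ hp
    · haveI : Fact q.Prime := ⟨hq⟩
      obtain ⟨x, hx⟩ := exists_prime_orderOf_dvd_card' q hdvd
      have hxQ : (QuotientGroup.mk' (Cfsg.piCore π H) (x : H)) ∈ Q := x.2
      have hxq : (x : H) ^ q = 1 := by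
        have h := pow_orderOf_eq_one x
        rw [hx] at h
        exact_mod_cast congrArg Subtype.val h
      have h1 : (QuotientGroup.mk' (Cfsg.piCore π H) (x : H)) ^ q = 1 := by
        rw [← map_pow, hxq, map_one]
      obtain ⟨k, hk⟩ := hQ ⟨_, hxQ⟩
      have h2 : (QuotientGroup.mk' (Cfsg.piCore π H) (x : H)) ^ p ^ k = 1 :=
        congrArg Subtype.val hk
      have hcop : Nat.Coprime q (p ^ k) :=
        Nat.Coprime.pow_right k ((Nat.coprime_primes hq Fact.out).mpr hqp)
      have h3 : (QuotientGroup.mk' (Cfsg.piCore π H) (x : H)) = 1 := by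
        have hd1 := orderOf_dvd_of_pow_eq_one h1
        have hd2 := orderOf_dvd_of_pow_eq_one h2
        have hd3 := Nat.dvd_gcd hd1 hd2
        rw [Nat.Coprime.gcd_eq_one hcop, Nat.dvd_one] at hd3
        exact orderOf_eq_one_iff.mp hd3
      have h4 : (x : H) ∈ Cfsg.piCore π H := (QuotientGroup.eq_one_iff _).mp h3
      have h5 : orderOf (x : H) = q := by rw [← hx]; exact Subgroup.orderOf_coe x
      have h6 : q ∣ Nat.card (Cfsg.piCore π H) := by
        rw [← h5]; exact Subgroup.orderOf_dvd_natCard _ h4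
      exact Cfsg.Agent.S3743.piCore_isPi π q hq h6
  rw [eq_bot_iff]
  intro y hy
  obtain ⟨x, rfl⟩ := QuotientGroup.mk'_surjective _ y
  have hx : x ∈ Cfsg.piCore π H := hC hy
  rw [Subgroup.mem_bot]
  exact (QuotientGroup.eq_one_iff _).mpr hx

/-- If every normal `p`-subgroup of `H` is trivial, a normal nilpotent subgroup of `H` has order
prime to `p`. -/
theorem not_dvd_card_of_normal_nilpotent_of_core {H : Type*} [Group H] [Finite H] {p : ℕ}
    [Fact p.Prime] (hO : ∀ Q : Subgroup H, Q.Normal → IsPGroup p Q → Q = ⊥) (D : Subgroup H)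
    [D.Normal] (hnil : Group.IsNilpotent D) : ¬ p ∣ Nat.card D := by
  intro hdvd
  have P : Sylow p D := default
  have hall : ∀ (q : ℕ), Fact q.Prime → ∀ (T : Sylow q D), (T : Subgroup D).Normal :=
    ((Group.isNilpotent_of_finite_tfae (G := D)).out 0 3).mp hnil
  have hPn : (P : Subgroup D).Normal := hall p inferInstance P
  haveI hPc : (P : Subgroup D).Characteristic := Sylow.characteristic_of_normal P hPn
  have hmapn : ((P : Subgroup D).map D.subtype).Normal :=
    ConjAct.normal_of_characteristic_of_normal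
  have hbot := hO _ hmapn (P.isPGroup'.map _)
  apply P.ne_bot_of_dvd_card hdvd
  rw [eq_bot_iff]
  intro x hx
  have h1 : (x : H) ∈ (P : Subgroup D).map D.subtype := ⟨x, hx, rfl⟩
  rw [hbot, Subgroup.mem_bot] at h1
  rw [Subgroup.mem_bot]
  exact Subtype.ext h1

/-- A `p`-subgroup of a subgroup of order prime to `p` is trivial. -/
theorem pGroup_eq_bot_of_le_of_not_dvd {H : Type*} [Group H] [Finite H] {p : ℕ} [Fact p.Prime]
    {Y F : Subgroup H} (hY : IsPGroup p Y) (hYF : Y ≤ F) (hF : ¬ p ∣ Nat.card F) : Y = ⊥ := by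
  obtain ⟨n, hn⟩ := IsPGroup.iff_card.mp hY
  have h1 : Nat.card Y ∣ Nat.card F := Subgroup.card_dvd_of_le hYF
  rw [hn] at h1
  rcases Nat.eq_zero_or_pos n with h0 | hpos
  · rw [h0, pow_zero] at hn
    exact Subgroup.card_eq_one.mp hn
  · exact absurd ((dvd_pow_self p hpos.ne').trans h1) hF

/-- A group of order prime to `p` has `p`-rank at most `k`, for every `k`. -/
theorem pRankLE_of_not_dvd_card {H : Type*} [Group H] [Finite H] {p : ℕ} [Fact p.Prime]
    (k : ℕ) (h : ¬ p ∣ Nat.card H) : Cfsg.PRankLE p k H := by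
  intro A _ hexp
  have hA : IsPGroup p A := by
    intro a
    refine ⟨1, ?_⟩
    rw [pow_one]
    exact Subtype.ext (by simpa using hexp a a.2)
  have hbot : A = ⊥ := by
    have := pGroup_eq_bot_of_le_of_not_dvd (F := ⊤) hA le_top (by rwa [Subgroup.card_top])
    exact this
  rw [hbot, Subgroup.card_bot]
  exact Nat.one_le_pow _ _ (Fact.out : p.Prime).pos

/-- `p`-rank bounds pass to subgroups. -/
theorem pRankLE_of_subgroup {H : Type*} [Group H] {p k : ℕ} (h : Cfsg.PRankLE p k H)
    (S : Subgroup H) : Cfsg.PRankLE p k S := by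
  intro A hAc hAp
  have h1 := h (A.map S.subtype) ?_ ?_
  · rwa [Subgroup.card_map_of_injective S.subtype_injective] at h1
  · refine ⟨⟨?_⟩⟩
    rintro ⟨_, a, ha, rfl⟩ ⟨_, b, hb, rfl⟩
    apply Subtype.ext
    have h2 := hAc.is_comm.comm (⟨a, ha⟩ : A) ⟨b, hb⟩
    have h3 := congrArg (fun x : A => ((x : S) : H)) h2
    simpa using h3
  · rintro _ ⟨a, ha, rfl⟩
    have h2 := hAp a ha
    have h3 := congrArg (fun x : S => (x : H)) h2
    simpa using h3

/-- A Sylow `p`-subgroup of `M` whose normalizer in `G` lies in `M` is a Sylow `p`-subgroup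
of `G`. -/
theorem not_dvd_index_of_normalizer_le {G : Type*} [Group G] [Finite G] {p : ℕ} [Fact p.Prime]
    (M : Subgroup G) (P : Sylow p M)
    (hN : Subgroup.normalizer (((P : Subgroup M).map M.subtype : Subgroup G) : Set G) ≤ M) :
    ¬ p ∣ ((P : Subgroup M).map M.subtype).index := by
  obtain ⟨K, hK⟩ : ∃ K : Subgroup G, K = (P : Subgroup M).map M.subtype := ⟨_, rfl⟩
  rw [← hK] at hN ⊢
  have hKp : IsPGroup p K := hK ▸ P.isPGroup'.map M.subtype
  have hKM : K ≤ M := hK ▸ Subgroup.map_subtype_le _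
  obtain ⟨n, hn⟩ := IsPGroup.iff_card.mp hKp
  have h1 := Sylow.card_quotient_normalizer_modEq_card_quotient hn
  intro hdvd
  have h2 : p ∣ Nat.card (G ⧸ K) := hdvd
  have h3 : p ∣ Nat.card (Subgroup.normalizer (K : Set G) ⧸
      K.comap (Subgroup.normalizer (K : Set G)).subtype) :=
    (Nat.modEq_zero_iff_dvd.mp ((h1.trans (Nat.modEq_zero_iff_dvd.mpr h2))))
  have h4 : K.relIndex (Subgroup.normalizer (K : Set G)) ∣ K.relIndex M :=
    Dvd.intro _ (Subgroup.relIndex_mul_relIndex K _ M Subgroup.le_normalizer hN)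
  have h5 : K.relIndex M = (P : Subgroup M).index := by
    rw [Subgroup.relIndex, hK]
    congr 1
    ext x
    simp [Subgroup.mem_subgroupOf]
  have h6 : p ∣ (P : Subgroup M).index := by
    rw [← h5]
    exact h3.trans h4
  exact P.not_dvd_index h6

/-- The focal subgroup argument: if `P` is a Sylow `p`-subgroup of `M` with `N_G(P) ≤ M`, `G` is
perfect, and fusion of nontrivial `p`-subgroups of `M` is controlled by `M` up to centralizers,
then `P ≤ M'`. -/
theorem sylow_le_commutator_of_control {G : Type*} [Group G] [Finite G]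
    (hperf : commutator G = ⊤) (M : Subgroup G) {p : ℕ} [Fact p.Prime] (P : Sylow p M)
    (hN : Subgroup.normalizer (((P : Subgroup M).map M.subtype : Subgroup G) : Set G) ≤ M)
    (hctl : ∀ (X : Subgroup G), IsPGroup p X → X ≠ ⊥ → X ≤ M → ∀ g : G,
      X.map (MulAut.conj g).toMonoidHom ≤ M →
        ∃ m ∈ M, ∃ c ∈ Subgroup.centralizer (X : Set G), g = m * c) :
    (P : Subgroup M).map M.subtype ≤ ⁅M, M⁆ := by
  have hidx := not_dvd_index_of_normalizer_le M P hN
  obtain ⟨K, hK⟩ : ∃ K : Subgroup G, K = (P : Subgroup M).map M.subtype := ⟨_, rfl⟩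
  rw [← hK] at hidx ⊢
  have hKp : IsPGroup p K := hK ▸ P.isPGroup'.map M.subtype
  have hKM : K ≤ M := hK ▸ Subgroup.map_subtype_le _
  obtain ⟨S, hS⟩ : ∃ S : Sylow p G, (S : Subgroup G) = K := ⟨hKp.toSylow hidx, rfl⟩
  have hfoc := Subgroup.commutator_inf_eq_focalSubgroup S
  rw [hperf, top_inf_eq] at hfoc
  rw [← hS, hfoc, Subgroup.focalSubgroup_def, Subgroup.closure_le]
  rintro g ⟨hg, x, hx, u, rfl⟩
  rw [hS] at hg hx
  by_cases hx1 : x = 1
  · subst hx1
    have : ⁅(1 : G), u⁆ = 1 := by rw [commutatorElement_def]; group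
    rw [this]
    exact Subgroup.one_mem _
  · have hxM : x ∈ M := hKM hx
    have huxu : u * x * u⁻¹ ∈ K := by
      have h1 : x⁻¹ * ⁅x, u⁆ ∈ K := K.mul_mem (K.inv_mem hx) hg
      have h2 : (x⁻¹ * ⁅x, u⁆)⁻¹ ∈ K := K.inv_mem h1
      have h3 : (x⁻¹ * ⁅x, u⁆)⁻¹ = u * x * u⁻¹ := by rw [commutatorElement_def]; group
      rwa [h3] at h2
    obtain ⟨m, hm, c, hc, rfl⟩ := hctl (Subgroup.zpowers x)
      (hKp.to_le ((Subgroup.zpowers_le).mpr hx)) (by simpa using hx1)
      ((Subgroup.zpowers_le).mpr hxM) u (by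
        rw [MonoidHom.map_zpowers, Subgroup.zpowers_le]
        exact hKM huxu)
    have hcx : x * c = c * x := hc x (Subgroup.mem_zpowers x)
    have hcomm : ⁅x, m * c⁆ = ⁅x, m⁆ := by
      rw [commutatorElement_def, commutatorElement_def]
      have h1 : c * x⁻¹ * c⁻¹ = x⁻¹ := by
        have : c * x⁻¹ = x⁻¹ * c := by
          calc c * x⁻¹ = x⁻¹ * (x * c) * x⁻¹ := by group
            _ = x⁻¹ * (c * x) * x⁻¹ := by rw [hcx]
            _ = x⁻¹ * c := by group
        rw [this]; group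
      calc x * (m * c) * x⁻¹ * (m * c)⁻¹ = x * m * (c * x⁻¹ * c⁻¹) * m⁻¹ := by group
        _ = x * m * x⁻¹ * m⁻¹ := by rw [h1]
    show ⁅x, m * c⁆ ∈ ((⁅M, M⁆ : Subgroup G) : Set G)
    rw [hcomm]
    exact Subgroup.commutator_mem_commutator hxM hm

/-- A finite simple non-abelian group is perfect. -/
theorem commutator_eq_top_of_simple {G : Type*} [Group G] (hs : IsSimpleGroup G)
    (hna : ¬ IsMulCommutative G) : commutator G = ⊤ := by
  haveI := hs
  rcases (inferInstance : (commutator G).Normal).eq_bot_or_eq_top with h | h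
  · exfalso
    apply hna
    refine ⟨⟨fun a b => ?_⟩⟩
    have h1 : ⁅a, b⁆ ∈ commutator G :=
      Subgroup.commutator_mem_commutator (Subgroup.mem_top a) (Subgroup.mem_top b)
    rw [h, Subgroup.mem_bot] at h1
    exact commutatorElement_eq_one_iff_mul_comm.mp h1
  · exact h

end Cfsg.Agent.Lib.Helper78.BG
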