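import Mathlib
import Cfsg.Prelude.Def_OddOrderLocal
import Cfsg.Agent.Lib.Helper35.BG.Hall
import Cfsg.Agent.Lib.Helper16.BG.NilHall
import Cfsg.Agent.Lib.Helper23.TypeP

/-!
# BG Section 16: the core `M_s` (statement S1389), from the earlier statements of the chain

`s1389_core` proves statement S1389 from S1350, S1351, S1352, S1355, S1357, S1363, S1365
(taken as hypotheses for the same group).  Reusable pieces:

* `typeP_prime_mem_kappa`: for type-P data `(W₁, U, W₂)` of `M`, every prime divisor of `#W₁`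
  lies in `κ(M)`;
* `typeP_sigma_decomposition_ne_bot`: hence `K ≠ 1` in every standard factorisation;
* `typeIII_IV_commutator_eq_sigmaCore`: if `M` has type-P data with `U ≠ 1` and `N_G(U) ≤ M`
  (Types III, IV) then `M' = M_σ` and the `U` of a standard factorisation is trivial;
* `hall_coprime_index_of_le_sigmaCore`, `sylow_normalizer_le_of_le_sigmaCore`: a Hall subgroup of
  `M` inside `M_σ` is a Hall subgroup of `G` and its nontrivial Sylow subgroups have their
  normalizers in `M`.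
-/

set_option autoImplicit false

namespace Cfsg.Agent.Lib.Helper78.BG

open Cfsg Cfsg.Agent.Lib.Helper46
open scoped Pointwise

variable {G : Type*} [Group G] [Finite G]

/-- A subgroup of a cyclic subgroup is cyclic (ambient formulation). -/
theorem isCyclic_of_le_of_isCyclic {H K : Subgroup G} (hHK : H ≤ K) (hK : IsCyclic K) :
    IsCyclic H := by
  have h1 : IsCyclic (H.subgroupOf K) := inferInstance
  exact isCyclic_of_surjective (Subgroup.subgroupOfEquivOfLe hHK).toMonoidHom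
    (Subgroup.subgroupOfEquivOfLe hHK).surjective

/-- `M_F` as a subgroup of `G` lies in `M`. -/
theorem fittingHallOf_le' (M : Subgroup G) : fittingHallOf M ≤ M :=
  Subgroup.map_subtype_le _

/-- `M_F` is a Hall subgroup of `M` (relative index formulation). -/
theorem fittingHallOf_coprime_relIndex (M : Subgroup G) :
    (Nat.card (fittingHallOf M)).Coprime ((fittingHallOf M).relIndex M) := by
  have h1 := Cfsg.Agent.Lib.Helper23.fittingHall_coprime M
  have h2 : (fittingHallOf M).subgroupOf M = fittingHall M := by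
    unfold fittingHallOf
    exact Subgroup.comap_map_eq_self_of_injective M.subtype_injective _
  rw [Cfsg.Agent.Lib.Helper23.card_fittingHallOf]
  unfold Subgroup.relIndex
  rw [h2]
  exact h1

/-- `M_σ` is a Hall subgroup of `M` (coprimality formulation). -/
theorem sigmaCore_coprime_relIndex (M : Subgroup G)
    (hσH : IsPiHallOf (sigma M) (sigmaCore M) M) :
    (Nat.card (sigmaCore M)).Coprime ((sigmaCore M).relIndex M) :=
  Nat.coprime_of_dvd fun k hk h1 h2 => hσH.2.2 k hk (hσH.2.1 k hk h1) h2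

/-- A Hall subgroup `T` of `M` inside `M_σ` is a Hall subgroup of `G`, given that `M_σ` is a Hall
`σ(M)`-subgroup of `G`. -/
theorem hall_coprime_index_of_le_sigmaCore (M T : Subgroup G)
    (hσG : IsPiHall (sigma M) (sigmaCore M)) (hT : T ≤ sigmaCore M)
    (hTc : (Nat.card T).Coprime (T.relIndex M)) :
    (Nat.card T).Coprime T.index := by
  have hσM : sigmaCore M ≤ M := Cfsg.Agent.Lib.Helper67.BG.sigmaCore_le M
  refine Nat.coprime_of_dvd fun p hp h1 h2 => ?_
  have h3 : p ∣ Nat.card (sigmaCore M) := h1.trans (Subgroup.card_dvd_of_le hT)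
  have h4 : p ∈ sigma M := hσG.1 p hp h3
  have h5 : ¬ p ∣ (sigmaCore M).index := hσG.2 p hp h4
  have h6 : T.relIndex (sigmaCore M) * (sigmaCore M).index = T.index :=
    Subgroup.relIndex_mul_index hT
  have h7 : T.relIndex (sigmaCore M) * (sigmaCore M).relIndex M = T.relIndex M :=
    Subgroup.relIndex_mul_relIndex T (sigmaCore M) M hT hσM
  rw [← h6] at h2
  rcases (Nat.Prime.dvd_mul hp).mp h2 with h | h
  · have h8 : p ∣ T.relIndex M := by
      rw [← h7]
      exact dvd_mul_of_dvd_left h _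
    exact (Nat.Prime.not_coprime_iff_dvd.mpr ⟨p, hp, h1, h8⟩) hTc
  · exact h5 h

/-- The nontrivial Sylow subgroups of a Hall subgroup `T` of `M` inside `M_σ` have their
normalizers in `M`. -/
theorem sylow_normalizer_le_of_le_sigmaCore (M T : Subgroup G) (hT : T ≤ sigmaCore M)
    (hTc : (Nat.card T).Coprime (T.relIndex M)) (p : ℕ) (hp : p.Prime) (P : Sylow p ↥T)
    (hP : (P : Subgroup ↥T) ≠ ⊥) :
    Subgroup.normalizer ((((P : Subgroup ↥T).map T.subtype : Subgroup G)) : Set G) ≤ M := by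
  haveI : Fact p.Prime := ⟨hp⟩
  have hσM : sigmaCore M ≤ M := Cfsg.Agent.Lib.Helper67.BG.sigmaCore_le M
  have hTM : T ≤ M := hT.trans hσM
  have hS : IsSylowIn p ((P : Subgroup ↥T).map T.subtype) T := isSylowIn_of_sylow P
  have hpT : p ∣ Nat.card T := by
    have h1 : Nat.card (P : Subgroup ↥T) ≠ 1 := fun h => hP (Subgroup.card_eq_one.mp h)
    obtain ⟨n, hn⟩ := IsPGroup.iff_card.mp P.isPGroup'
    have hn0 : n ≠ 0 := by
      intro h0
      rw [h0, pow_zero] at hn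
      exact h1 hn
    have h2 : p ∣ Nat.card (P : Subgroup ↥T) := by
      rw [hn]
      exact dvd_pow_self p hn0
    exact h2.trans (Subgroup.card_subgroup_dvd_card _)
  have hpσ : p ∈ sigma M :=
    Cfsg.Agent.Lib.Helper67.BG.sigmaCore_isPi M p hp (hpT.trans (Subgroup.card_dvd_of_le hT))
  have hpr : ¬ p ∣ T.relIndex M := fun h =>
    (Nat.Prime.not_coprime_iff_dvd.mpr ⟨p, hp, hpT, h⟩) hTc
  have hfac : (Nat.card M).factorization p = (Nat.card T).factorization p := by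
    have e1 : Nat.card T * T.relIndex M = Nat.card M :=
      Cfsg.Agent.Lib.Helper35.BG.card_mul_relIndex' hTM
    have hr0 : T.relIndex M ≠ 0 := by
      intro h0
      rw [h0, mul_zero] at e1
      exact Nat.card_pos.ne' e1.symm
    rw [← e1, Nat.factorization_mul Nat.card_pos.ne' hr0]
    simp [Nat.factorization_eq_zero_of_not_dvd hpr]
  have hSM : IsSylowIn p ((P : Subgroup ↥T).map T.subtype) M :=
    ⟨hS.1.trans hTM, by rw [hS.2, hfac]⟩
  exact Cfsg.Agent.Lib.Helper35.BG.normalizer_le_of_sigma hpσ hSM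

/-- For type-P data `(W₁, U, W₂)` of `M`, every prime divisor of `#W₁` lies in `κ(M)`, provided
`M_σ` is a Hall `σ(M)`-subgroup of `M` and `M_F ≤ M_σ ≤ M'`. -/
theorem typeP_prime_mem_kappa (M W₁ U W₂ : Subgroup G) (hP : IsTypePWith M W₁ U W₂)
    (hσH : IsPiHallOf (sigma M) (sigmaCore M) M) (hFσ : fittingHallOf M ≤ sigmaCore M)
    (hσD : sigmaCore M ≤ ⁅M, M⁆) (r : ℕ) (hr : r.Prime) (hrW : r ∣ Nat.card W₁) :
    r ∈ kappa M := by
  haveI : Fact r.Prime := ⟨hr⟩
  have hW₁M : W₁ ≤ M := hP.W₁_compl.2.1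
  have hDM : ⁅M, M⁆ ≤ M := hP.W₁_compl.1
  have hσM : sigmaCore M ≤ M := Cfsg.Agent.Lib.Helper67.BG.sigmaCore_le M
  have hrM : r ∣ Nat.card M := hrW.trans (Subgroup.card_dvd_of_le hW₁M)
  have hrσ : r ∉ sigma M := by
    intro hσ
    apply hσH.2.2 r hr hσ
    have h1 : (sigmaCore M).relIndex ⁅M, M⁆ * (⁅M, M⁆ : Subgroup G).relIndex M =
        (sigmaCore M).relIndex M :=
      Subgroup.relIndex_mul_relIndex (sigmaCore M) ⁅M, M⁆ M hσD hDM
    have h2 : (⁅M, M⁆ : Subgroup G).relIndex M = Nat.card W₁ :=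
      Cfsg.Agent.Lib.Helper35.BG.relIndex_left_of_isComplIn hP.W₁_compl
    rw [← h1, h2]
    exact dvd_mul_of_dvd_right hrW _
  -- a Sylow `r`-subgroup of `W₁` is a Sylow `r`-subgroup of `M`
  obtain ⟨R₁⟩ : Nonempty (Sylow r ↥W₁) := inferInstance
  have hR₁ : IsSylowIn r ((R₁ : Subgroup ↥W₁).map W₁.subtype) W₁ := isSylowIn_of_sylow R₁
  have hrr : ¬ r ∣ W₁.relIndex M := fun h =>
    (Nat.Prime.not_coprime_iff_dvd.mpr ⟨r, hr, hrW, h⟩) hP.W₁_hall
  have hfac : (Nat.card M).factorization r = (Nat.card W₁).factorization r := by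
    have e1 : Nat.card W₁ * W₁.relIndex M = Nat.card M :=
      Cfsg.Agent.Lib.Helper35.BG.card_mul_relIndex' hW₁M
    have hr0 : W₁.relIndex M ≠ 0 := by
      intro h0
      rw [h0, mul_zero] at e1
      exact Nat.card_pos.ne' e1.symm
    rw [← e1, Nat.factorization_mul Nat.card_pos.ne' hr0]
    simp [Nat.factorization_eq_zero_of_not_dvd hrr]
  have hR₁M : IsSylowIn r ((R₁ : Subgroup ↥W₁).map W₁.subtype) M :=
    ⟨hR₁.1.trans hW₁M, by rw [hR₁.2, hfac]⟩
  -- a nonidentity element `x₀` of it, and `y₀ ∈ W₂` nonidentity commuting with it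
  have hRne : ((R₁ : Subgroup ↥W₁).map W₁.subtype) ≠ ⊥ := by
    intro h
    have h1 : Nat.card ((R₁ : Subgroup ↥W₁).map W₁.subtype) = 1 := by rw [h]; simp
    rw [hR₁.2] at h1
    have h2 : (Nat.card W₁).factorization r ≠ 0 := by
      have := (Nat.Prime.factorization_pos_of_dvd hr Nat.card_pos.ne' hrW)
      omega
    have h3 : 1 < r ^ (Nat.card W₁).factorization r := Nat.one_lt_pow h2 hr.one_lt
    omega
  obtain ⟨⟨x₀, hx₀R⟩, hx₀1⟩ := (Subgroup.ne_bot_iff_exists_ne_one).mp hRne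
  have hx₀1' : x₀ ≠ 1 := fun h => hx₀1 (Subtype.ext h)
  have hx₀W : x₀ ∈ W₁ := hR₁.1 hx₀R
  have hW₂ne : W₂ ≠ ⊥ := hP.selfNormalizing.2.1
  obtain ⟨⟨y₀, hy₀W⟩, hy₀1⟩ := (Subgroup.ne_bot_iff_exists_ne_one).mp hW₂ne
  have hy₀1' : y₀ ≠ 1 := fun h => hy₀1 (Subtype.ext h)
  have hy₀σ : y₀ ∈ sigmaCore M := hFσ (hP.W₂_le hy₀W).1
  have hcomm : x₀ * y₀ = y₀ * x₀ := by
    have h1 : y₀ ∈ ⁅M, M⁆ ⊓ Subgroup.centralizer ({x₀} : Set G) := by
      rw [hP.W₂_centralizer x₀ hx₀W hx₀1']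
      exact hy₀W
    exact (Subgroup.mem_centralizer_iff.mp h1.2) x₀ rfl
  refine ⟨hr, hrM, hrσ, fun P => ?_⟩
  obtain ⟨m, hm, hPm⟩ := hR₁M.exists_conj (isSylowIn_of_sylow P)
  have hle : (P : Subgroup ↥M).map M.subtype ≤ W₁.map (MulAut.conj m).toMonoidHom := by
    rw [hPm]
    exact Subgroup.map_mono hR₁.1
  have hcW : IsCyclic (W₁.map (MulAut.conj m).toMonoidHom) := by
    haveI := hP.W₁_cyclic
    exact isCyclic_of_surjective ((MulAut.conj m).toMonoidHom.subgroupMap W₁)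
      ((MulAut.conj m).toMonoidHom.subgroupMap_surjective W₁)
  have hcP' : IsCyclic ((P : Subgroup ↥M).map M.subtype) := isCyclic_of_le_of_isCyclic hle hcW
  have hcP : IsCyclic (P : Subgroup ↥M) := by
    haveI := hcP'
    exact isCyclic_of_surjective
      ((P : Subgroup ↥M).equivMapOfInjective M.subtype M.subtype_injective).symm.toMonoidHom
      ((P : Subgroup ↥M).equivMapOfInjective M.subtype M.subtype_injective).symm.surjective
  refine ⟨hcP, ?_⟩
  have hxP : m * x₀ * m⁻¹ ∈ (P : Subgroup ↥M).map M.subtype := by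
    rw [hPm]
    exact Cfsg.Agent.Lib.Helper35.BG.conj_mem_map_conj m hx₀R
  obtain ⟨x, hxP', hxe⟩ := hxP
  have hxe' : (x : G) = m * x₀ * m⁻¹ := hxe
  refine ⟨x, hxP', ?_, m * y₀ * m⁻¹, ?_, ?_, ?_⟩
  · intro h
    apply hx₀1'
    have h1 : m * x₀ * m⁻¹ = 1 := by rw [← hxe', h]; rfl
    have h2 : x₀ = m⁻¹ * (m * x₀ * m⁻¹) * m := by group
    rw [h2, h1]; group
  · have hn := Cfsg.Agent.Lib.Helper67.BG.sigmaCore_normalizer M hm
    exact (Subgroup.mem_normalizer_iff.mp hn y₀).mp hy₀σ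
  · intro h
    apply hy₀1'
    have h2 : y₀ = m⁻¹ * (m * y₀ * m⁻¹) * m := by group
    rw [h2, h]; group
  · rw [hxe']
    calc m * x₀ * m⁻¹ * (m * y₀ * m⁻¹) = m * (x₀ * y₀) * m⁻¹ := by group
      _ = m * (y₀ * x₀) * m⁻¹ := by rw [hcomm]
      _ = m * y₀ * m⁻¹ * (m * x₀ * m⁻¹) := by group

/-- For type-P data of `M`, the `K` of any standard factorisation is nontrivial. -/
theorem typeP_sigma_decomposition_ne_bot (M W₁ U₁ W₂ : Subgroup G) (hP : IsTypePWith M W₁ U₁ W₂)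
    (hσH : IsPiHallOf (sigma M) (sigmaCore M) M) (hFσ : fittingHallOf M ≤ sigmaCore M)
    (hσD : sigmaCore M ≤ ⁅M, M⁆) (K : Subgroup G) (hK : IsPiHallOf (kappa M) K M) : K ≠ ⊥ := by
  have hW1 : Nat.card W₁ ≠ 1 := fun h => hP.W₁_ne (Subgroup.card_eq_one.mp h)
  obtain ⟨r, hr, hrW⟩ := Nat.exists_prime_and_dvd hW1
  have hrκ := typeP_prime_mem_kappa M W₁ U₁ W₂ hP hσH hFσ hσD r hr hrW
  intro hK0
  apply hK.2.2 r hr hrκ
  rw [hK0, Subgroup.relIndex_bot_left]
  exact hrκ.2.1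

/-- If `M` has type-P data `(W₁, U₁, W₂)` with `U₁ ≠ 1` and `N_G(U₁) ≤ M` (Types III and IV), then
in every standard factorisation `M = K U M_σ` one has `K ≠ 1`, `U = 1`, and `M' = M_σ`.
Hypotheses: the conclusions of S1350, S1355, S1357, S1363, S1365 for `M`. -/
theorem typeIII_IV_commutator_eq_sigmaCore (hG : IsMinSimpleOddOrder G) (M : Subgroup G)
    (hM : IsCoatom M) (W₁ U₁ W₂ : Subgroup G) (hP : IsTypePWith M W₁ U₁ W₂) (hU₁ : U₁ ≠ ⊥)
    (hN : Subgroup.normalizer (U₁ : Set G) ≤ M)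
    (hσH : IsPiHallOf (sigma M) (sigmaCore M) M) (hFσ : fittingHallOf M ≤ sigmaCore M)
    (hσD : sigmaCore M ≤ ⁅M, M⁆) (K U : Subgroup G) (hKU : IsSigmaDecomposition M K U)
    (h1357 : fittingHallOf M ≠ sigmaCore M → U = ⊥)
    (h1363 : K ≠ ⊥ → ¬ Subgroup.normalizer (U : Set G) ≤ M)
    (h1365 : K ≠ ⊥ → ⁅M, M⁆ = U ⊔ sigmaCore M) :
    K ≠ ⊥ ∧ U = ⊥ ∧ ⁅M, M⁆ = sigmaCore M := by
  have hK1 : K ≠ ⊥ := typeP_sigma_decomposition_ne_bot M W₁ U₁ W₂ hP hσH hFσ hσD K hKU.hall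
  have hD := h1365 hK1
  have hU : U = ⊥ := by
    by_contra hU1
    have hFeq : fittingHallOf M = sigmaCore M := by
      by_contra hne
      exact hU1 (h1357 hne)
    have hnN := h1363 hK1
    have hMtop : M ≠ ⊤ := hM.1
    have hDM : ⁅M, M⁆ ≤ M := hP.W₁_compl.1
    have hDsolv : Group.IsSolvable ↥(⁅M, M⁆ : Subgroup G) := by
      apply hG.2.2.2
      intro h
      exact hMtop (top_le_iff.mp (h ▸ hDM))
    have hUD : U ≤ ⁅M, M⁆ := by rw [hD]; exact le_sup_left
    have hU₁D : U₁ ≤ ⁅M, M⁆ := hP.U_compl.2.1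
    have hUσ : U ⊓ sigmaCore M = ⊥ := by
      rw [eq_bot_iff]
      intro x hx
      have : x ∈ U ⊓ (K ⊔ sigmaCore M) := ⟨hx.1, Subgroup.mem_sup_right hx.2⟩
      rw [hKU.compl.2.2.1] at this
      exact this
    -- orders
    have hc1 : Nat.card (⁅M, M⁆ : Subgroup G) = Nat.card (fittingHallOf M) * Nat.card U₁ :=
      Cfsg.Agent.Lib.Helper23.card_of_isComplIn hP.U_compl
    have hUnorm : U ≤ Subgroup.normalizer (sigmaCore M : Set G) :=
      hKU.compl.1.trans (Cfsg.Agent.Lib.Helper67.BG.sigmaCore_normalizer M)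
    have hcU : IsComplIn U (sigmaCore M) ⁅M, M⁆ := by
      refine ⟨hUD, hσD, hUσ, fun x hx => ?_⟩
      rw [hD] at hx
      have h2 : (((U ⊔ sigmaCore M : Subgroup G)) : Set G) = (U : Set G) * (sigmaCore M : Set G) :=
        Subgroup.coe_mul_of_left_le_normalizer_right U (sigmaCore M) hUnorm
      have hx' : x ∈ (((U ⊔ sigmaCore M : Subgroup G)) : Set G) := hx
      rw [h2] at hx'
      obtain ⟨u, hu, s, hs, rfl⟩ := Set.mem_mul.mp hx'
      exact ⟨u, hu, s, hs, rfl⟩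
    have hc2 : Nat.card (⁅M, M⁆ : Subgroup G) = Nat.card U * Nat.card (sigmaCore M) :=
      Cfsg.Agent.Lib.Helper23.card_of_isComplIn hcU
    have hcard : Nat.card U₁ = Nat.card U := by
      rw [hFeq] at hc1
      have h3 : Nat.card (sigmaCore M) * Nat.card U₁ = Nat.card (sigmaCore M) * Nat.card U := by
        rw [← hc1, hc2, mul_comm]
      exact Nat.eq_of_mul_eq_mul_left Nat.card_pos h3
    have hrel : U.relIndex ⁅M, M⁆ = Nat.card (sigmaCore M) :=
      Cfsg.Agent.Lib.Helper35.BG.relIndex_left_of_isComplIn hcU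
    have hUhall := Cfsg.Agent.Lib.Helper35.BG.isPiHallOf_of_sigmaDecomposition hσH hKU
    have hcop : (Nat.card U).Coprime (U.relIndex ⁅M, M⁆) := by
      rw [hrel]
      refine Nat.coprime_of_dvd fun p hp h1 h2 => ?_
      exact (hUhall.2.1 p hp h1).2.2 (Cfsg.Agent.Lib.Helper67.BG.sigmaCore_isPi M p hp h2)
    obtain ⟨d, hd, hconj⟩ := Cfsg.Agent.Lib.Helper16.BG.rel_hall_conj ⁅M, M⁆ U₁ U hDsolv hU₁D hUD
      hcard hcop
    have hUeq : U₁.map (MulAut.conj d).toMonoidHom = U := by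
      apply Subgroup.eq_of_le_of_card_ge
      · rintro _ ⟨v, hv, rfl⟩
        exact hconj v hv
      · rw [Cfsg.Agent.Lib.Helper35.BG.card_map_conj, hcard]
    apply hnN
    rw [← hUeq, Cfsg.Agent.Lib.Helper35.BG.normalizer_map_conj]
    rintro _ ⟨n, hn, rfl⟩
    have hdM : d ∈ M := hDM hd
    exact M.mul_mem (M.mul_mem hdM (hN hn)) (M.inv_mem hdM)
  refine ⟨hK1, hU, ?_⟩
  rw [hD, hU, bot_sup_eq]

/-- **Statement S1389** from the earlier statements S1350, S1351, S1352, S1355, S1357, S1363,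
S1365 of the Bender–Glauberman chain (for the same group). -/
theorem s1389_core (hG : IsMinSimpleOddOrder G)
    (h1350 : ∀ M : Subgroup G, IsCoatom M →
      IsPiHallOf (sigma M) (sigmaCore M) M ∧ IsPiHall (sigma M) (sigmaCore M) ∧
        ∀ N : Subgroup G, M ≤ Subgroup.normalizer (N : Set G) → IsPiHallOf (sigma M) N M →
          N = sigmaCore M)
    (h1351 : ∀ M : Subgroup G, IsCoatom M →
      (∃ K : Subgroup G, IsPiHallOf (kappa M) K M) ∧
        ∀ K : Subgroup G, IsPiHallOf (kappa M) K M → IsCyclic K)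
    (h1352 : ∀ M : Subgroup G, IsCoatom M → ∀ K : Subgroup G, IsCyclic K →
      IsPiHallOf (kappa M) K M →
      (∃ U : Subgroup G, IsSigmaDecomposition M K U) ∧
        ∀ U : Subgroup G, IsSigmaDecomposition M K U →
          M ≤ Subgroup.normalizer ((U ⊔ sigmaCore M : Subgroup G) : Set G))
    (h1355 : ∀ M : Subgroup G, IsCoatom M →
      fittingHallOf M ≠ ⊥ ∧ fittingHallOf M ≤ sigmaCore M ∧ sigmaCore M ≤ ⁅M, M⁆ ∧ ⁅M, M⁆ < M ∧
        Group.IsNilpotent ↥((commutator ↥M).map (QuotientGroup.mk' (fittingHall ↥M))))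
    (h1357 : ∀ M : Subgroup G, IsCoatom M → ∀ K U : Subgroup G, IsSigmaDecomposition M K U →
      fittingHallOf M ≠ sigmaCore M →
      U = ⊥ ∧ IsTISubset (fittingOf M : Set G) ∧ (Nat.card K).Prime)
    (h1363 : ∀ M : Subgroup G, IsCoatom M → ∀ K U : Subgroup G, IsSigmaDecomposition M K U →
      K ≠ ⊥ → IsMulCommutative U ∧ ¬ Subgroup.normalizer (U : Set G) ≤ M)
    (h1365 : ∀ M : Subgroup G, IsCoatom M → ∀ K U : Subgroup G, IsSigmaDecomposition M K U →
      K ≠ ⊥ → ⁅M, M⁆ = U ⊔ sigmaCore M ∧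
        (sigmaCore M ⊓ Subgroup.centralizer (K : Set G)) ≤ ⁅⁅M, M⁆, ⁅M, M⁆⁆)
    (M : Subgroup G) (hM : IsCoatom M) :
    (∀ (p : ℕ), p.Prime → ∀ (P : Sylow p ↥(typeCore M)), (P : Subgroup ↥(typeCore M)) ≠ ⊥ →
        Subgroup.normalizer ((((P : Subgroup ↥(typeCore M)).map (typeCore M).subtype :
          Subgroup G)) : Set G) ≤ M) ∧
      (Nat.card (fittingHallOf M)).Coprime (fittingHallOf M).index ∧
      (Nat.card (typeCore M)).Coprime (typeCore M).index := by
  obtain ⟨hσH, hσG, -⟩ := h1350 M hM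
  obtain ⟨-, hFσ, hσD, -, -⟩ := h1355 M hM
  have hFc := fittingHallOf_coprime_relIndex M
  have hσc := sigmaCore_coprime_relIndex M hσH
  -- the two candidates for `M_s`
  have key : ∀ T : Subgroup G, T ≤ sigmaCore M → (Nat.card T).Coprime (T.relIndex M) →
      (∀ (p : ℕ), p.Prime → ∀ (P : Sylow p ↥T), (P : Subgroup ↥T) ≠ ⊥ →
        Subgroup.normalizer ((((P : Subgroup ↥T).map T.subtype : Subgroup G)) : Set G) ≤ M) ∧
      (Nat.card T).Coprime T.index := fun T hT hTc =>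
    ⟨fun p hp P hP => sylow_normalizer_le_of_le_sigmaCore M T hT hTc p hp P hP,
      hall_coprime_index_of_le_sigmaCore M T hσG hT hTc⟩
  have hF := key (fittingHallOf M) hFσ hFc
  refine ⟨?_, hF.2, ?_⟩
  all_goals
    by_cases hty : IsOfTypeIII M ∨ IsOfTypeIV M
    · -- Types III, IV: `M_s = M' = M_σ`
      have hD : ⁅M, M⁆ = sigmaCore M := by
        obtain ⟨K, hK⟩ := (h1351 M hM).1
        have hKc := (h1351 M hM).2 K hK
        obtain ⟨U, hKU⟩ := (h1352 M hM K hKc hK).1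
        have hdata : ∃ W₁ U₁ W₂ : Subgroup G, IsTypePWith M W₁ U₁ W₂ ∧ U₁ ≠ ⊥ ∧
            Subgroup.normalizer (U₁ : Set G) ≤ M := by
          rcases hty with ⟨W₁, U₁, W₂, hP, hU₁, -, -, -, hN⟩ | ⟨W₁, U₁, W₂, hP, hU₁, -, -, -, hN⟩
          · exact ⟨W₁, U₁, W₂, hP, hU₁, hN⟩
          · exact ⟨W₁, U₁, W₂, hP, hU₁, hN⟩
        obtain ⟨W₁, U₁, W₂, hP, hU₁, hN⟩ := hdata
        exact (typeIII_IV_commutator_eq_sigmaCore hG M hM W₁ U₁ W₂ hP hU₁ hN hσH hFσ hσD K U hKU
          (fun hne => (h1357 M hM K U hKU hne).1)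
          (fun hK1 => (h1363 M hM K U hKU hK1).2)
          (fun hK1 => (h1365 M hM K U hKU hK1).1)).2.2
      have hT : typeCore M = sigmaCore M := by
        unfold typeCore
        rw [if_pos hty, hD]
      rw [hT]
      first
        | exact (key (sigmaCore M) le_rfl hσc).1
        | exact (key (sigmaCore M) le_rfl hσc).2
    · have hT : typeCore M = fittingHallOf M := by
        unfold typeCore
        rw [if_neg hty]
      rw [hT]
      first
        | exact hF.1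
        | exact hF.2

end Cfsg.Agent.Lib.Helper78.BG
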