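import Mathlib
import Cfsg.Prelude.Def_OddOrderLocal
import Cfsg.Agent.Lib.Helper78.BG.S1389Core
import Cfsg.Agent.Lib.Helper32.SylowConj

/-!
# BG Section 16: complements in maximal subgroups of Types I and II (statement S1390)

`s1390_core` proves statement S1390 from S1350, S1351, S1352, S1355, S1357, S1358, S1361, S1362,
S1363, S1364, S1365 (taken as hypotheses for the same group).  Reusable pieces:

* `mem_zpowers_of_orderOf_eq_prime`: in a finite cyclic group two elements of the same prime order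
  generate the same subgroup;
* `typeF_kappa_hall_eq_bot`: a maximal subgroup of Frobenius type has `K = 1` (forward half of
  S1380);
* `sigmaDecomposition_conj`: conjugating a standard factorisation by an element of `M`;
* `typeP_normalizer_le_of_commutator_eq_sigmaCore`: type-P data with `M' = M_σ` has `N_G(U) ≤ M`
  (so Type II forces `U ≠ 1` in the standard factorisation: forward half of S1381);
* `normalizer_le_normalizer_sylIn_of_nilpotent`.
-/

set_option autoImplicit false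

namespace Cfsg.Agent.Lib.Helper78.BG

open Cfsg Cfsg.Agent.Lib.Helper46
open scoped Pointwise

variable {G : Type*} [Group G] [Finite G]

/-- In a finite cyclic group, two elements of the same prime order generate the same subgroup. -/
theorem mem_zpowers_of_orderOf_eq_prime {C : Type*} [Group C] [Finite C] [IsCyclic C] {r : ℕ}
    {u a : C} (hu : orderOf u = r) (ha : orderOf a = r) :
    u ∈ Subgroup.zpowers a := by
  letI : CommGroup C := IsCyclic.commGroup
  have hker : Nat.card (powMonoidHom r : C →* C).ker = (Nat.card C).gcd r :=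
    IsCyclic.card_powMonoidHom_ker C r
  have hrn : r ∣ Nat.card C := ha ▸ orderOf_dvd_natCard a
  have hgcd : (Nat.card C).gcd r = r := Nat.gcd_eq_right hrn
  have hle : Subgroup.zpowers a ≤ (powMonoidHom r : C →* C).ker := by
    rw [Subgroup.zpowers_le, MonoidHom.mem_ker, powMonoidHom_apply, ← ha, pow_orderOf_eq_one]
  have hcard : Nat.card (Subgroup.zpowers a) = r := by rw [Nat.card_zpowers, ha]
  have heq : Subgroup.zpowers a = (powMonoidHom r : C →* C).ker :=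
    Subgroup.eq_of_le_of_card_ge hle (by rw [hker, hgcd, hcard])
  rw [heq, MonoidHom.mem_ker, powMonoidHom_apply, ← hu, pow_orderOf_eq_one]

/-- The normalizer of a nilpotent subgroup normalizes each of its Sylow subgroups. -/
theorem normalizer_le_normalizer_sylIn_of_nilpotent {p : ℕ} [Fact p.Prime] {D S : Subgroup G}
    (hD : Group.IsNilpotent D) (hS : IsSylowIn p S D) :
    Subgroup.normalizer (D : Set G) ≤ Subgroup.normalizer (S : Set G) := by
  obtain ⟨T, hT⟩ := hS.exists_sylow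
  have hTn : (T : Subgroup D).Normal :=
    Sylow.normal_of_normalizerCondition Group.normalizerCondition_of_isNilpotent T
  intro m hm
  have hmap : D.map (MulAut.conj m).toMonoidHom = D := map_conj_eq_of_mem_normalizer hm
  have hSm : IsSylowIn p (S.map (MulAut.conj m).toMonoidHom) D := by
    refine ⟨?_, ?_⟩
    · calc S.map (MulAut.conj m).toMonoidHom ≤ D.map (MulAut.conj m).toMonoidHom :=
          Subgroup.map_mono hS.1
        _ = D := hmap
    · rw [Cfsg.Agent.Lib.Helper35.BG.card_map_conj]; exact hS.2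
  obtain ⟨T', hT'⟩ := hSm.exists_sylow
  haveI := Sylow.unique_of_normal T hTn
  have hTT' : T' = T := Subsingleton.elim _ _
  have h3 : S.map (MulAut.conj m).toMonoidHom = S := by
    rw [← hT', hTT', hT]
  exact Cfsg.Agent.Lib.Helper35.BG.mem_normalizer_of_map_conj_eq h3

/-- Conjugating a standard factorisation of `M` by an element of `M`. -/
theorem sigmaDecomposition_conj (M K U : Subgroup G) (hKU : IsSigmaDecomposition M K U) (m : G)
    (hm : m ∈ M) :
    IsSigmaDecomposition M (K.map (MulAut.conj m).toMonoidHom)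
      (U.map (MulAut.conj m).toMonoidHom) := by
  have hσM : sigmaCore M ≤ M := Cfsg.Agent.Lib.Helper67.BG.sigmaCore_le M
  have hσmap : (sigmaCore M).map (MulAut.conj m).toMonoidHom = sigmaCore M :=
    map_conj_eq_of_mem_normalizer (Cfsg.Agent.Lib.Helper67.BG.sigmaCore_normalizer M hm)
  have hconjM : ∀ X : Subgroup G, X ≤ M → X.map (MulAut.conj m).toMonoidHom ≤ M := by
    rintro X hX _ ⟨x, hx, rfl⟩
    exact M.mul_mem (M.mul_mem hm (hX hx)) (M.inv_mem hm)
  have hsup : (K ⊔ sigmaCore M).map (MulAut.conj m).toMonoidHom =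
      K.map (MulAut.conj m).toMonoidHom ⊔ sigmaCore M := by
    rw [Subgroup.map_sup, hσmap]
  refine ⟨?_, ⟨hconjM K hKU.hall.1, ?_, ?_⟩, ⟨hconjM U hKU.compl.1, ?_, ?_, ?_⟩, ?_⟩
  · haveI := hKU.cyclic
    exact isCyclic_of_surjective ((MulAut.conj m).toMonoidHom.subgroupMap K)
      ((MulAut.conj m).toMonoidHom.subgroupMap_surjective K)
  · intro p hp hpd
    rw [Cfsg.Agent.Lib.Helper35.BG.card_map_conj] at hpd
    exact hKU.hall.2.1 p hp hpd
  · intro p hp hpκ hpd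
    apply hKU.hall.2.2 p hp hpκ
    have e1 := Cfsg.Agent.Lib.Helper35.BG.card_mul_relIndex' (hconjM K hKU.hall.1)
    have e2 := Cfsg.Agent.Lib.Helper35.BG.card_mul_relIndex' hKU.hall.1
    rw [Cfsg.Agent.Lib.Helper35.BG.card_map_conj] at e1
    have e3 : (K.map (MulAut.conj m).toMonoidHom).relIndex M = K.relIndex M :=
      Nat.eq_of_mul_eq_mul_left Nat.card_pos (e1.trans e2.symm)
    rwa [e3] at hpd
  · exact sup_le (hconjM K hKU.hall.1) hσM
  · rw [← hsup, ← Subgroup.map_inf _ _ _ (MulAut.conj m).injective, hKU.compl.2.2.1,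
      Subgroup.map_bot]
  · intro x hx
    have hx' : m⁻¹ * x * m ∈ M := M.mul_mem (M.mul_mem (M.inv_mem hm) hx) hm
    obtain ⟨u, hu, b, hb, hub⟩ := hKU.compl.2.2.2 _ hx'
    refine ⟨m * u * m⁻¹, Cfsg.Agent.Lib.Helper35.BG.conj_mem_map_conj m hu, m * b * m⁻¹, ?_, ?_⟩
    · rw [← hsup]
      exact Cfsg.Agent.Lib.Helper35.BG.conj_mem_map_conj m hb
    · have h1 : x = m * (m⁻¹ * x * m) * m⁻¹ := by group
      rw [h1, hub]; group
  · rw [Cfsg.Agent.Lib.Helper35.BG.normalizer_map_conj]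
    exact Subgroup.map_mono hKU.normal

/-- In a standard factorisation the orders of `U` and `M_σ` are coprime. -/
theorem sigmaDecomposition_coprime_sigmaCore (M K U : Subgroup G)
    (hσH : IsPiHallOf (sigma M) (sigmaCore M) M) (hKU : IsSigmaDecomposition M K U) :
    (Nat.card U).Coprime (Nat.card (sigmaCore M)) := by
  have hUhall := Cfsg.Agent.Lib.Helper35.BG.isPiHallOf_of_sigmaDecomposition hσH hKU
  refine Nat.coprime_of_dvd fun p hp h1 h2 => ?_
  exact (hUhall.2.1 p hp h1).2.2 (Cfsg.Agent.Lib.Helper67.BG.sigmaCore_isPi M p hp h2)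

/-- If `M' = U M_σ` in a standard factorisation, then `U` is a complement to `M_σ` in `M'`. -/
theorem sigmaDecomposition_complIn_commutator (M K U : Subgroup G)
    (hKU : IsSigmaDecomposition M K U) (hD : ⁅M, M⁆ = U ⊔ sigmaCore M) :
    IsComplIn U (sigmaCore M) ⁅M, M⁆ := by
  have hUD : U ≤ ⁅M, M⁆ := by rw [hD]; exact le_sup_left
  have hσD : sigmaCore M ≤ ⁅M, M⁆ := by rw [hD]; exact le_sup_right
  have hUσ : U ⊓ sigmaCore M = ⊥ := by
    rw [eq_bot_iff]
    intro x hx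
    have : x ∈ U ⊓ (K ⊔ sigmaCore M) := ⟨hx.1, Subgroup.mem_sup_right hx.2⟩
    rw [hKU.compl.2.2.1] at this
    exact this
  have hUnorm : U ≤ Subgroup.normalizer (sigmaCore M : Set G) :=
    hKU.compl.1.trans (Cfsg.Agent.Lib.Helper67.BG.sigmaCore_normalizer M)
  refine ⟨hUD, hσD, hUσ, fun x hx => ?_⟩
  rw [hD] at hx
  have h2 : (((U ⊔ sigmaCore M : Subgroup G)) : Set G) = (U : Set G) * (sigmaCore M : Set G) :=
    Subgroup.coe_mul_of_left_le_normalizer_right U (sigmaCore M) hUnorm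
  have hx' : x ∈ (((U ⊔ sigmaCore M : Subgroup G)) : Set G) := hx
  rw [h2] at hx'
  obtain ⟨u, hu, s, hs, rfl⟩ := Set.mem_mul.mp hx'
  exact ⟨u, hu, s, hs, rfl⟩

/-- A maximal subgroup of Frobenius type has trivial Hall `κ(M)`-subgroups: if `K ≠ 1` then
`K* = M_σ ∩ C(K)` is a nontrivial subgroup of `M_F` centralized by `K`, while a subgroup of the
Frobenius complement with the same exponent acts freely on `M_F`. -/
theorem typeF_kappa_hall_eq_bot (M K : Subgroup G) (hF : IsOfTypeF M)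
    (hK : IsPiHallOf (kappa M) K M) (hFσ : fittingHallOf M ≤ sigmaCore M)
    (hKs : K ≠ ⊥ → sigmaCore M ⊓ Subgroup.centralizer (K : Set G) ≠ ⊥ ∧
      sigmaCore M ⊓ Subgroup.centralizer (K : Set G) ≤ fittingHallOf M) :
    K = ⊥ := by
  by_contra hK1
  obtain ⟨hne, hle⟩ := hKs hK1
  have hKcard : Nat.card K ≠ 1 := fun h => hK1 (Subgroup.card_eq_one.mp h)
  obtain ⟨r, hr, hrK⟩ := Nat.exists_prime_and_dvd hKcard
  haveI : Fact r.Prime := ⟨hr⟩
  have hrκ : r ∈ kappa M := hK.2.1 r hr hrK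
  obtain ⟨-, -, -, -, UF, -, hUFc, -, U₀, -, hexp, hfpf⟩ := hF
  -- an element `k` of order `r` in `K` and `y ≠ 1` in `K* ≤ M_F`
  obtain ⟨k, hk⟩ := exists_prime_orderOf_dvd_card' (G := ↥K) r hrK
  obtain ⟨⟨y, hy⟩, hy1⟩ := (Subgroup.ne_bot_iff_exists_ne_one).mp hne
  have hy1' : y ≠ 1 := fun h => hy1 (Subtype.ext h)
  have hyF : y ∈ fittingHallOf M := hle hy
  obtain ⟨y₀, hy₀F, hy₀e⟩ := hyF
  have hy₀e' : (y₀ : G) = y := hy₀e
  have hky : (k : G) * y = y * (k : G) := (Subgroup.mem_centralizer_iff.mp hy.2) (k : G) k.2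
  -- `r` divides the order of the Frobenius complement, hence of `U₀`
  have hrUF : r ∣ Nat.card UF := by
    have h1 : Nat.card (fittingHall M) * Nat.card UF = Nat.card M := hUFc.card_mul_card
    have h2 : r ∣ Nat.card (fittingHall M) * Nat.card UF := by rw [h1]; exact hrκ.2.1
    rcases (Nat.Prime.dvd_mul hr).mp h2 with h | h
    · exfalso
      rw [← Cfsg.Agent.Lib.Helper23.card_fittingHallOf] at h
      exact hrκ.2.2.1 (Cfsg.Agent.Lib.Helper67.BG.sigmaCore_isPi M r hr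
        (h.trans (Subgroup.card_dvd_of_le hFσ)))
    · exact h
  obtain ⟨v, hv⟩ := exists_prime_orderOf_dvd_card' (G := ↥UF) r hrUF
  have hrU₀ : r ∣ Nat.card U₀ := by
    have h1 : r ∣ Monoid.exponent ↥UF := hv ▸ Monoid.order_dvd_exponent v
    rw [← hexp] at h1
    exact h1.trans Group.exponent_dvd_nat_card
  obtain ⟨u, hu⟩ := exists_prime_orderOf_dvd_card' (G := ↥U₀) r hrU₀
  -- work inside the group `↥M`
  have hkM : (k : G) ∈ M := hK.1 k.2
  obtain ⟨k', hk'⟩ : ∃ k' : ↥M, k' = ⟨(k : G), hkM⟩ := ⟨_, rfl⟩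
  have hk'ord : orderOf k' = r := by
    rw [hk', ← hk, ← Subgroup.orderOf_coe k, ← Subgroup.orderOf_coe (⟨(k : G), hkM⟩ : ↥M)]
  have hu'ord : orderOf (u : ↥M) = r := by rw [Subgroup.orderOf_coe, hu]
  have hu'1 : (u : ↥M) ≠ 1 := by
    intro h
    rw [h, orderOf_one] at hu'ord
    exact hr.one_lt.ne hu'ord
  have hpg : IsPGroup r (Subgroup.zpowers (u : ↥M)) := by
    apply IsPGroup.of_card (n := 1)
    rw [Nat.card_zpowers, hu'ord, pow_one]
  obtain ⟨P, hP⟩ := hpg.exists_le_sylow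
  have huP : (u : ↥M) ∈ (P : Subgroup ↥M) := hP (Subgroup.mem_zpowers _)
  obtain ⟨m, -, hmk⟩ := Cfsg.Agent.Lib.Helper32.exists_conj_mem_sylow_of_mem (⊤ : Subgroup ↥M) P
    le_top k' (Subgroup.mem_top _) ⟨1, by rw [pow_one, ← hk'ord, pow_orderOf_eq_one]⟩
  have hcyc : IsCyclic (P : Subgroup ↥M) := (hrκ.2.2.2 P).1
  have hord1 : orderOf (⟨(u : ↥M), huP⟩ : ↥(P : Subgroup ↥M)) = r := by
    rw [← Subgroup.orderOf_coe]; exact hu'ord
  have hord2 : orderOf (⟨m * k' * m⁻¹, hmk⟩ : ↥(P : Subgroup ↥M)) = r := by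
    rw [← Subgroup.orderOf_coe]
    show orderOf (m * k' * m⁻¹) = r
    have h1 := orderOf_injective (MulAut.conj m).toMonoidHom (MulAut.conj m).injective k'
    rw [← hk'ord, ← h1]
    rfl
  have hmem := mem_zpowers_of_orderOf_eq_prime hord1 hord2
  obtain ⟨j, hj⟩ := Subgroup.mem_zpowers_iff.mp hmem
  have hj' : (m * k' * m⁻¹) ^ j = (u : ↥M) := by
    have := congrArg (fun t : ↥(P : Subgroup ↥M) => (t : ↥M)) hj
    simpa using this
  -- the conjugate of `y` by `m` is a fixed point of `u` in `M_F`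
  have hcomm₀ : k' * y₀ = y₀ * k' := by
    apply Subtype.ext
    rw [hk']
    show (k : G) * (y₀ : G) = (y₀ : G) * (k : G)
    rw [hy₀e']; exact hky
  have hcomm₁ : Commute (m * k' * m⁻¹) (m * y₀ * m⁻¹) := by
    show m * k' * m⁻¹ * (m * y₀ * m⁻¹) = m * y₀ * m⁻¹ * (m * k' * m⁻¹)
    calc m * k' * m⁻¹ * (m * y₀ * m⁻¹) = m * (k' * y₀) * m⁻¹ := by group
      _ = m * (y₀ * k') * m⁻¹ := by rw [hcomm₀]
      _ = m * y₀ * m⁻¹ * (m * k' * m⁻¹) := by group
  have hcomm₂ : (u : ↥M) * (m * y₀ * m⁻¹) = (m * y₀ * m⁻¹) * (u : ↥M) := by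
    rw [← hj']
    exact (hcomm₁.zpow_left j).eq
  have hnormal : m * y₀ * m⁻¹ ∈ fittingHall M :=
    (fittingHall_normal M).conj_mem y₀ hy₀F m
  have h1 := hfpf (u : ↥M) u.2 hu'1 (m * y₀ * m⁻¹) hnormal hcomm₂
  have hy₀1 : y₀ = 1 := by
    have h2 : y₀ = m⁻¹ * (m * y₀ * m⁻¹) * m := by group
    rw [h2, h1]; group
  apply hy1'
  rw [← hy₀e', hy₀1]; rfl

/-- Type-P data of `M` with `M' = M_σ`: the normalizer of the complement `U₁ ≠ 1` lies in `M`. -/
theorem typeP_normalizer_le_of_commutator_eq_sigmaCore (M W₁ U₁ W₂ : Subgroup G)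
    (hP : IsTypePWith M W₁ U₁ W₂) (hU₁ : U₁ ≠ ⊥)
    (hσH : IsPiHallOf (sigma M) (sigmaCore M) M) (hD : ⁅M, M⁆ = sigmaCore M) :
    Subgroup.normalizer (U₁ : Set G) ≤ M := by
  have hσM : sigmaCore M ≤ M := Cfsg.Agent.Lib.Helper67.BG.sigmaCore_le M
  have hU₁card : Nat.card U₁ ≠ 1 := fun h => hU₁ (Subgroup.card_eq_one.mp h)
  obtain ⟨p, hp, hpU⟩ := Nat.exists_prime_and_dvd hU₁card
  haveI : Fact p.Prime := ⟨hp⟩
  have hU₁D : U₁ ≤ ⁅M, M⁆ := hP.U_compl.2.1
  have hcD : Nat.card (⁅M, M⁆ : Subgroup G) = Nat.card (fittingHallOf M) * Nat.card U₁ :=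
    Cfsg.Agent.Lib.Helper23.card_of_isComplIn hP.U_compl
  have hcop := Cfsg.Agent.Lib.Helper23.typeP_coprime_H_U M W₁ U₁ W₂ hP
  have hpσcard : p ∣ Nat.card (sigmaCore M) := by
    rw [← hD, hcD]
    exact dvd_mul_of_dvd_right hpU _
  have hpσ : p ∈ sigma M := Cfsg.Agent.Lib.Helper67.BG.sigmaCore_isPi M p hp hpσcard
  have hpF : ¬ p ∣ Nat.card (fittingHallOf M) := fun h =>
    (Nat.Prime.not_coprime_iff_dvd.mpr ⟨p, hp, h, hpU⟩) hcop
  have hpr : ¬ p ∣ (sigmaCore M).relIndex M := hσH.2.2 p hp hpσ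
  -- the `p`-part of `#M` equals the `p`-part of `#U₁`
  have hfac : (Nat.card M).factorization p = (Nat.card U₁).factorization p := by
    have e1 : Nat.card (sigmaCore M) * (sigmaCore M).relIndex M = Nat.card M :=
      Cfsg.Agent.Lib.Helper35.BG.card_mul_relIndex' hσM
    have hr0 : (sigmaCore M).relIndex M ≠ 0 := by
      intro h0
      rw [h0, mul_zero] at e1
      exact Nat.card_pos.ne' e1.symm
    have hfacσ : (Nat.card M).factorization p = (Nat.card (sigmaCore M)).factorization p := by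
      rw [← e1, Nat.factorization_mul Nat.card_pos.ne' hr0]
      simp [Nat.factorization_eq_zero_of_not_dvd hpr]
    have hcσ : Nat.card (sigmaCore M) = Nat.card (fittingHallOf M) * Nat.card U₁ := by
      rw [← hD]; exact hcD
    rw [hfacσ, hcσ, Nat.factorization_mul Nat.card_pos.ne' Nat.card_pos.ne']
    simp [Nat.factorization_eq_zero_of_not_dvd hpF]
  obtain ⟨S⟩ : Nonempty (Sylow p ↥U₁) := inferInstance
  have hS : IsSylowIn p ((S : Subgroup ↥U₁).map U₁.subtype) U₁ := isSylowIn_of_sylow S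
  have hSM : IsSylowIn p ((S : Subgroup ↥U₁).map U₁.subtype) M :=
    ⟨hS.1.trans (hU₁D.trans (hD ▸ hσM)), by rw [hS.2, hfac]⟩
  exact (normalizer_le_normalizer_sylIn_of_nilpotent hP.U_nilpotent hS).trans
    (Cfsg.Agent.Lib.Helper35.BG.normalizer_le_of_sigma hpσ hSM)

/-- **Statement S1390** from the earlier statements S1350, S1351, S1352, S1355, S1357, S1358,
S1361, S1362, S1363, S1364, S1365 of the Bender–Glauberman chain (for the same group). -/
theorem s1390_core (hG : IsMinSimpleOddOrder G)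
    (h1350 : ∀ M : Subgroup G, IsCoatom M →
      IsPiHallOf (sigma M) (sigmaCore M) M ∧ IsPiHall (sigma M) (sigmaCore M) ∧
        ∀ N : Subgroup G, M ≤ Subgroup.normalizer (N : Set G) → IsPiHallOf (sigma M) N M →
          N = sigmaCore M)
    (h1351 : ∀ M : Subgroup G, IsCoatom M →
      (∃ K : Subgroup G, IsPiHallOf (kappa M) K M) ∧
        ∀ K : Subgroup G, IsPiHallOf (kappa M) K M → IsCyclic K)
    (h1352 : ∀ M : Subgroup G, IsCoatom M → ∀ K : Subgroup G, IsCyclic K →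
      IsPiHallOf (kappa M) K M →
      (∃ U : Subgroup G, IsSigmaDecomposition M K U) ∧
        ∀ U : Subgroup G, IsSigmaDecomposition M K U →
          M ≤ Subgroup.normalizer ((U ⊔ sigmaCore M : Subgroup G) : Set G))
    (h1355 : ∀ M : Subgroup G, IsCoatom M →
      fittingHallOf M ≠ ⊥ ∧ fittingHallOf M ≤ sigmaCore M ∧ sigmaCore M ≤ ⁅M, M⁆ ∧ ⁅M, M⁆ < M ∧
        Group.IsNilpotent ↥((commutator ↥M).map (QuotientGroup.mk' (fittingHall ↥M))))
    (h1357 : ∀ M : Subgroup G, IsCoatom M → ∀ K U : Subgroup G, IsSigmaDecomposition M K U →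
      fittingHallOf M ≠ sigmaCore M →
      U = ⊥ ∧ IsTISubset (fittingOf M : Set G) ∧ (Nat.card K).Prime)
    (h1358 : ∀ M : Subgroup G, IsCoatom M → ∀ K U : Subgroup G, IsSigmaDecomposition M K U →
      ∀ (p : ℕ), p.Prime → ∀ P : Sylow p U,
        IsMulCommutative (P : Subgroup U) ∧ PRankLE p 2 (P : Subgroup U))
    (h1361 : ∀ M : Subgroup G, IsCoatom M → ∀ K U : Subgroup G, IsSigmaDecomposition M K U →
      ∀ X : Subgroup G, X ≤ U → X ≠ ⊥ →
      sigmaCore M ⊓ Subgroup.centralizer (X : Set G) ≠ ⊥ →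
      Subgroup.centralizer (X : Set G) ≤ M ∧
        ∀ L : Subgroup G, IsCoatom L → Subgroup.centralizer (X : Set G) ≤ L → L = M)
    (h1362 : ∀ M : Subgroup G, IsCoatom M → ∀ K U : Subgroup G, IsSigmaDecomposition M K U →
      IsTISubset (sigmaA M U \ (sigmaCore M : Set G)))
    (h1363 : ∀ M : Subgroup G, IsCoatom M → ∀ K U : Subgroup G, IsSigmaDecomposition M K U →
      K ≠ ⊥ → IsMulCommutative U ∧ ¬ Subgroup.normalizer (U : Set G) ≤ M)
    (h1364 : ∀ M : Subgroup G, IsCoatom M → ∀ K U : Subgroup G, IsSigmaDecomposition M K U →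
      K ≠ ⊥ →
      IsCyclic ↥(sigmaCore M ⊓ Subgroup.centralizer (K : Set G)) ∧
        (sigmaCore M ⊓ Subgroup.centralizer (K : Set G)) ≠ ⊥ ∧
        (sigmaCore M ⊓ Subgroup.centralizer (K : Set G)) ≤ fittingHallOf M ∧
        ¬ IsCyclic (fittingHallOf M))
    (h1365 : ∀ M : Subgroup G, IsCoatom M → ∀ K U : Subgroup G, IsSigmaDecomposition M K U →
      K ≠ ⊥ → ⁅M, M⁆ = U ⊔ sigmaCore M ∧
        (sigmaCore M ⊓ Subgroup.centralizer (K : Set G)) ≤ ⁅⁅M, M⁆, ⁅M, M⁆⁆)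
    (M : Subgroup G) (hM : IsCoatom M) (U : Subgroup G)
    (hU : (IsOfTypeI M ∧ IsComplIn (fittingHallOf M) U M) ∨
      (IsOfTypeII M ∧ IsComplIn (fittingHallOf M) U ⁅M, M⁆)) :
    (∀ (p : ℕ), p.Prime → ∀ P : Sylow p U,
        IsMulCommutative (P : Subgroup U) ∧ PRankLE p 2 (P : Subgroup U)) ∧
      (∀ X : Set G, X ⊆ (U : Set G) \ {1} → X.Nonempty →
        fittingHallOf M ⊓ Subgroup.centralizer X ≠ ⊥ →
        Subgroup.centralizer X ≤ M ∧
          ∀ L : Subgroup G, IsCoatom L → Subgroup.centralizer X ≤ L → L = M) ∧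
      IsTISubset (typeA M \ typeA1 M) := by
  obtain ⟨hσH, hσG, -⟩ := h1350 M hM
  obtain ⟨-, hFσ, hσD, hDlt, -⟩ := h1355 M hM
  have hσM : sigmaCore M ≤ M := Cfsg.Agent.Lib.Helper67.BG.sigmaCore_le M
  obtain ⟨K₀, hK₀⟩ := (h1351 M hM).1
  have hK₀c := (h1351 M hM).2 K₀ hK₀
  obtain ⟨U₀, hKU₀⟩ := (h1352 M hM K₀ hK₀c hK₀).1
  -- `K₀ = 1` for Type I
  have hI_K : IsOfTypeI M → K₀ = ⊥ := fun hI =>
    typeF_kappa_hall_eq_bot M K₀ hI.1 hK₀ hFσ
      (fun hK1 => ⟨(h1364 M hM K₀ U₀ hKU₀ hK1).2.1, (h1364 M hM K₀ U₀ hKU₀ hK1).2.2.1⟩)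
  -- Types III, IV force `K₀ ≠ 1` and `U₀ = 1`
  have hIII : IsOfTypeIII M ∨ IsOfTypeIV M → K₀ ≠ ⊥ ∧ U₀ = ⊥ := by
    intro hty
    have hdata : ∃ W₁ U₁ W₂ : Subgroup G, IsTypePWith M W₁ U₁ W₂ ∧ U₁ ≠ ⊥ ∧
        Subgroup.normalizer (U₁ : Set G) ≤ M := by
      rcases hty with ⟨W₁, U₁, W₂, hP, hU₁, -, -, -, hN⟩ | ⟨W₁, U₁, W₂, hP, hU₁, -, -, -, hN⟩
      · exact ⟨W₁, U₁, W₂, hP, hU₁, hN⟩
      · exact ⟨W₁, U₁, W₂, hP, hU₁, hN⟩
    obtain ⟨W₁, U₁, W₂, hP, hU₁, hN⟩ := hdata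
    have h := typeIII_IV_commutator_eq_sigmaCore hG M hM W₁ U₁ W₂ hP hU₁ hN hσH hFσ hσD K₀ U₀ hKU₀
      (fun hne => (h1357 M hM K₀ U₀ hKU₀ hne).1)
      (fun hK1 => (h1363 M hM K₀ U₀ hKU₀ hK1).2)
      (fun hK1 => (h1365 M hM K₀ U₀ hKU₀ hK1).1)
    exact ⟨h.1, h.2.1⟩
  -- the common conclusion, from a standard factorisation `(K, U)` with `M_F = M_σ`
  have main : ∀ K : Subgroup G, IsSigmaDecomposition M K U → fittingHallOf M = sigmaCore M →
      typeA M \ typeA1 M = sigmaA M U \ (sigmaCore M : Set G) →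
      (∀ (p : ℕ), p.Prime → ∀ P : Sylow p U,
        IsMulCommutative (P : Subgroup U) ∧ PRankLE p 2 (P : Subgroup U)) ∧
      (∀ X : Set G, X ⊆ (U : Set G) \ {1} → X.Nonempty →
        fittingHallOf M ⊓ Subgroup.centralizer X ≠ ⊥ →
        Subgroup.centralizer X ≤ M ∧
          ∀ L : Subgroup G, IsCoatom L → Subgroup.centralizer X ≤ L → L = M) ∧
      IsTISubset (typeA M \ typeA1 M) := by
    intro K hKU hFeq hset
    refine ⟨h1358 M hM K U hKU, ?_, ?_⟩
    · intro X hXU hXne hXc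
      have hcl : Subgroup.closure X ≤ U :=
        (Subgroup.closure_le U).mpr (fun x hx => (hXU hx).1)
      have hclne : Subgroup.closure X ≠ ⊥ := by
        obtain ⟨x, hx⟩ := hXne
        intro h
        have h1 : x ∈ Subgroup.closure X := Subgroup.subset_closure hx
        rw [h, Subgroup.mem_bot] at h1
        exact (hXU hx).2 h1
      have hcent : Subgroup.centralizer ((Subgroup.closure X : Subgroup G) : Set G) =
          Subgroup.centralizer X := Subgroup.centralizer_closure X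
      have h := h1361 M hM K U hKU (Subgroup.closure X) hcl hclne (by
        rw [hcent, ← hFeq]; exact hXc)
      rw [hcent] at h
      exact h
    · rw [hset]
      exact h1362 M hM K U hKU
  rcases hU with ⟨hI, hc⟩ | ⟨hII, hc⟩
  · -- Type I
    have hK₀1 : K₀ = ⊥ := hI_K hI
    have hFeq : fittingHallOf M = sigmaCore M := by
      by_contra hne
      have hU₀1 : U₀ = ⊥ := (h1357 M hM K₀ U₀ hKU₀ hne).1
      have h1 : M ≤ sigmaCore M := by
        intro m hm
        obtain ⟨u, hu, b, hb, rfl⟩ := hKU₀.compl.2.2.2 m hm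
        rw [hU₀1, Subgroup.mem_bot] at hu
        rw [hK₀1, bot_sup_eq] at hb
        rw [hu, one_mul]
        exact hb
      exact absurd (h1.trans hσD) (not_le_of_gt hDlt)
    have hnot : ¬ (IsOfTypeIII M ∨ IsOfTypeIV M) := fun h => (hIII h).1 hK₀1
    have hMU : M ≤ U ⊔ sigmaCore M := by
      intro m hm
      obtain ⟨a, ha, b, hb, rfl⟩ := hc.2.2.2 m hm
      exact Subgroup.mul_mem _ (Subgroup.mem_sup_right (hFeq ▸ ha)) (Subgroup.mem_sup_left hb)
    have hKU : IsSigmaDecomposition M ⊥ U := by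
      refine ⟨?_, hK₀1 ▸ hKU₀.hall, ⟨hc.2.1, ?_, ?_, ?_⟩, bot_le⟩
      · exact isCyclic_of_subsingleton
      · rw [bot_sup_eq]; exact hσM
      · rw [bot_sup_eq, ← hFeq, inf_comm]; exact hc.2.2.1
      · intro m hm
        obtain ⟨a, ha, b, hb, rfl⟩ := hc.2.2.2 m hm
        refine ⟨b, hb, b⁻¹ * a * b, ?_, by group⟩
        rw [bot_sup_eq]
        have hbM : b ∈ M := hc.2.1 hb
        have hn := Cfsg.Agent.Lib.Helper67.BG.sigmaCore_normalizer M (M.inv_mem hbM)
        have h2 := (Subgroup.mem_normalizer_iff.mp hn a).mp (hFeq ▸ ha)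
        rwa [inv_inv] at h2
    refine main ⊥ hKU hFeq ?_
    have hTc : typeCore M = sigmaCore M := by
      unfold typeCore
      rw [if_neg hnot, hFeq]
    unfold typeA typeA1 sigmaA sigmaHat
    rw [if_pos hI, hTc, hFeq]
    ext a
    simp only [Set.mem_sdiff, Set.mem_ofPred_eq, Set.mem_inter_iff, SetLike.mem_coe,
      Set.mem_singleton_iff]
    constructor
    · rintro ⟨⟨haM, ha1, x, hx, hx1, hax⟩, hnot'⟩
      exact ⟨⟨⟨haM, x, hx, hx1, hax⟩, hMU haM⟩, fun haσ => hnot' ⟨haσ, ha1⟩⟩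
    · rintro ⟨⟨⟨haM, y, hy, hy1, hay⟩, -⟩, hnσ⟩
      have ha1 : a ≠ 1 := fun h => hnσ (h ▸ Subgroup.one_mem _)
      exact ⟨⟨haM, ha1, y, hy, hy1, hay⟩, fun h => hnσ h.1⟩
  · -- Type II
    obtain ⟨W₁, U₁, W₂, hP, hU₁, -, -, -, hnN, -, -⟩ := hII
    have hK₀1 : K₀ ≠ ⊥ := typeP_sigma_decomposition_ne_bot M W₁ U₁ W₂ hP hσH hFσ hσD K₀ hK₀
    have hD := (h1365 M hM K₀ U₀ hKU₀ hK₀1).1
    have hU₀1 : U₀ ≠ ⊥ := by
      intro h0
      apply hnN
      apply typeP_normalizer_le_of_commutator_eq_sigmaCore M W₁ U₁ W₂ hP hU₁ hσH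
      rw [hD, h0, bot_sup_eq]
    have hFeq : fittingHallOf M = sigmaCore M := by
      by_contra hne
      exact hU₀1 (h1357 M hM K₀ U₀ hKU₀ hne).1
    have hnI : ¬ IsOfTypeI M := fun hI => hK₀1 (hI_K hI)
    have hnot : ¬ (IsOfTypeIII M ∨ IsOfTypeIV M) := fun h => hU₀1 (hIII h).2
    -- `U` is conjugate to `U₀` inside `M'`
    have hcU₀ := sigmaDecomposition_complIn_commutator M K₀ U₀ hKU₀ hD
    have hMtop : M ≠ ⊤ := hM.1
    have hDM : ⁅M, M⁆ ≤ M := hDlt.le
    have hDsolv : Group.IsSolvable ↥(⁅M, M⁆ : Subgroup G) := by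
      apply hG.2.2.2
      intro h
      exact hMtop (top_le_iff.mp (h ▸ hDM))
    have hc1 : Nat.card (⁅M, M⁆ : Subgroup G) = Nat.card (fittingHallOf M) * Nat.card U :=
      Cfsg.Agent.Lib.Helper23.card_of_isComplIn hc
    have hc2 : Nat.card (⁅M, M⁆ : Subgroup G) = Nat.card U₀ * Nat.card (sigmaCore M) :=
      Cfsg.Agent.Lib.Helper23.card_of_isComplIn hcU₀
    have hcard : Nat.card U₀ = Nat.card U := by
      rw [hFeq] at hc1
      have h3 : Nat.card (sigmaCore M) * Nat.card U₀ = Nat.card (sigmaCore M) * Nat.card U := by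
        rw [← hc1, hc2, mul_comm]
      exact Nat.eq_of_mul_eq_mul_left Nat.card_pos h3
    have hrel : U.relIndex ⁅M, M⁆ = Nat.card (fittingHallOf M) :=
      Cfsg.Agent.Lib.Helper35.BG.relIndex_right_of_isComplIn hc
    have hcop : (Nat.card U).Coprime (U.relIndex ⁅M, M⁆) := by
      rw [hrel, hFeq, ← hcard]
      exact sigmaDecomposition_coprime_sigmaCore M K₀ U₀ hσH hKU₀
    obtain ⟨d, hd, hconj⟩ := Cfsg.Agent.Lib.Helper16.BG.rel_hall_conj ⁅M, M⁆ U₀ U hDsolv hcU₀.1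
      hc.2.1 hcard hcop
    have hUeq : U₀.map (MulAut.conj d).toMonoidHom = U := by
      apply Subgroup.eq_of_le_of_card_ge
      · rintro _ ⟨v, hv, rfl⟩
        exact hconj v hv
      · rw [Cfsg.Agent.Lib.Helper35.BG.card_map_conj, hcard]
    have hKU : IsSigmaDecomposition M (K₀.map (MulAut.conj d).toMonoidHom) U := by
      have h := sigmaDecomposition_conj M K₀ U₀ hKU₀ d (hDM hd)
      rwa [hUeq] at h
    have hUD : U ⊔ sigmaCore M = ⁅M, M⁆ := by
      apply le_antisymm (sup_le hc.2.1 hσD)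
      intro x hx
      obtain ⟨a, ha, b, hb, rfl⟩ := hc.2.2.2 x hx
      exact Subgroup.mul_mem _ (Subgroup.mem_sup_right (hFeq ▸ ha)) (Subgroup.mem_sup_left hb)
    refine main _ hKU hFeq ?_
    have hTc : typeCore M = sigmaCore M := by
      unfold typeCore
      rw [if_neg hnot, hFeq]
    unfold typeA typeA1 sigmaA sigmaHat
    rw [if_neg hnI, hTc, hUD]
    ext a
    simp only [Set.mem_sdiff, Set.mem_ofPred_eq, Set.mem_inter_iff, SetLike.mem_coe,
      Set.mem_singleton_iff]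
    constructor
    · rintro ⟨⟨haD, ha1, x, hx, hx1, hax⟩, hnot'⟩
      exact ⟨⟨⟨hDM haD, x, hx, hx1, hax⟩, haD⟩, fun haσ => hnot' ⟨haσ, ha1⟩⟩
    · rintro ⟨⟨⟨-, y, hy, hy1, hay⟩, haD⟩, hnσ⟩
      have ha1 : a ≠ 1 := fun h => hnσ (h ▸ Subgroup.one_mem _)
      exact ⟨⟨haD, ha1, y, hy, hy1, hay⟩, fun h => hnσ h.1⟩

end Cfsg.Agent.Lib.Helper78.BG
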