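import Mathlib
import Cfsg.Prelude.Def_OddOrderLocal
import Cfsg.Agent.Lib.Helper35.BG.Basic
import Cfsg.Agent.Lib.Helper35.BG.Hall
import Cfsg.Agent.Lib.Helper46.Amalgam
import Cfsg.Agent.Lib.Helper78.BG.S1390Core

/-!
Auxiliary group theory for statement S1376 (helper78): Frobenius complements from fixed-point-free
complements, normal Sylow subgroups, commuting subgroups of coprime prime-power order inside a
nilpotent subgroup.
-/

set_option autoImplicit false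

namespace Cfsg.Agent.Lib.Helper78.BG

open Cfsg Cfsg.Agent.Lib.Helper46 Cfsg.Agent.Lib.Helper35.BG
open scoped Pointwise

variable {G : Type*} [Group G]

/-- A complement `E` of a normal subgroup `S` of `H` acting fixed-point-freely on `S` is a
Frobenius complement in `H`. -/
theorem isFrobeniusComplement_of_fpf_compl {H E S : Subgroup G} (hc : IsComplIn E S H)
    (hSn : H ≤ Subgroup.normalizer (S : Set G)) (hE1 : E ≠ ⊥) (hS1 : S ≠ ⊥)
    (hfpf : ∀ e ∈ E, e ≠ 1 → ∀ s ∈ S, e * s = s * e → s = 1) :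
    IsFrobeniusComplement (E.subgroupOf H) := by
  obtain ⟨hEH, hSH, hES, hprod⟩ := hc
  refine ⟨?_, ?_, ?_⟩
  · intro h
    apply hE1
    rw [eq_bot_iff]
    intro e he
    have h1 : (⟨e, hEH he⟩ : ↥H) ∈ E.subgroupOf H := Subgroup.mem_subgroupOf.mpr he
    rw [h, Subgroup.mem_bot] at h1
    rw [Subgroup.mem_bot]
    exact congrArg Subtype.val h1
  · intro h
    apply hS1
    rw [eq_bot_iff]
    intro s hs
    have h1 : (⟨s, hSH hs⟩ : ↥H) ∈ E.subgroupOf H := by rw [h]; exact Subgroup.mem_top _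
    have h2 : s ∈ E ⊓ S := ⟨Subgroup.mem_subgroupOf.mp h1, hs⟩
    rwa [hES] at h2
  · intro g hg
    rw [eq_bot_iff]
    intro e he
    rw [Subgroup.mem_inf] at he
    obtain ⟨he1, he2⟩ := he
    rw [Subgroup.mem_pointwise_smul_iff_inv_smul_mem] at he2
    have he1' : (e : G) ∈ E := Subgroup.mem_subgroupOf.mp he1
    have he2' : (g : G)⁻¹ * (e : G) * (g : G) ∈ E := by
      have := Subgroup.mem_subgroupOf.mp he2
      simpa [MulAut.conj_apply] using this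
    have hgE : (g : G) ∉ E := fun h => hg (Subgroup.mem_subgroupOf.mpr h)
    obtain ⟨a, ha, b, hb, hab⟩ := hprod (g : G) g.2
    -- e' := a⁻¹ e a ∈ E
    have he' : a⁻¹ * (e : G) * a ∈ E := E.mul_mem (E.mul_mem (E.inv_mem ha) he1') ha
    have hbH : b ∈ H := hSH hb
    have he'H : a⁻¹ * (e : G) * a ∈ H := hEH he'
    -- e1 = b⁻¹ e' b
    have e1 : (g : G)⁻¹ * (e : G) * (g : G) = b⁻¹ * (a⁻¹ * (e : G) * a) * b := by
      rw [hab]; group
    -- (e')⁻¹ * e1 ∈ E ⊓ S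
    have hS' : (a⁻¹ * (e : G) * a)⁻¹ * (b⁻¹ * (a⁻¹ * (e : G) * a) * b) ∈ S := by
      have h1 : (a⁻¹ * (e : G) * a)⁻¹ * b⁻¹ * (a⁻¹ * (e : G) * a)⁻¹⁻¹ ∈ S :=
        (Subgroup.mem_normalizer_iff.mp (hSn (H.inv_mem he'H)) b⁻¹).mp (S.inv_mem hb)
      have h2 := S.mul_mem h1 hb
      have e2 : (a⁻¹ * (e : G) * a)⁻¹ * b⁻¹ * (a⁻¹ * (e : G) * a)⁻¹⁻¹ * b =
          (a⁻¹ * (e : G) * a)⁻¹ * (b⁻¹ * (a⁻¹ * (e : G) * a) * b) := by group
      rwa [e2] at h2
    have hE' : (a⁻¹ * (e : G) * a)⁻¹ * (b⁻¹ * (a⁻¹ * (e : G) * a) * b) ∈ E := by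
      rw [← e1]
      exact E.mul_mem (E.inv_mem he') he2'
    have h3 : (a⁻¹ * (e : G) * a)⁻¹ * (b⁻¹ * (a⁻¹ * (e : G) * a) * b) ∈ E ⊓ S := ⟨hE', hS'⟩
    rw [hES, Subgroup.mem_bot] at h3
    have hcomm : (a⁻¹ * (e : G) * a) * b = b * (a⁻¹ * (e : G) * a) := by
      have h4 : b⁻¹ * (a⁻¹ * (e : G) * a) * b = a⁻¹ * (e : G) * a := by
        have := inv_mul_eq_one.mp h3
        exact this.symm
      calc (a⁻¹ * (e : G) * a) * b = b * (b⁻¹ * (a⁻¹ * (e : G) * a) * b) := by group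
        _ = b * (a⁻¹ * (e : G) * a) := by rw [h4]
    rw [Subgroup.mem_bot]
    by_contra hne
    have hne' : a⁻¹ * (e : G) * a ≠ 1 := by
      intro h
      apply hne
      have h5 : (e : G) = 1 := by
        have : (e : G) = a * (a⁻¹ * (e : G) * a) * a⁻¹ := by group
        rw [this, h]; group
      exact Subtype.ext h5
    have hb1 : b = 1 := hfpf _ he' hne' b hb hcomm
    apply hgE
    rw [hab, hb1, mul_one]
    exact ha

/-- A normal Sylow subgroup contains every `p`-subgroup. -/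
theorem le_of_sylIn_of_le_normalizer [Finite G] {p : ℕ} [Fact p.Prime] {Q F X : Subgroup G}
    (hQ : IsSylowIn p Q F) (hN : F ≤ Subgroup.normalizer (Q : Set G)) (hX : IsPGroup p X)
    (hXF : X ≤ F) : X ≤ Q := by
  obtain ⟨R, hR, hXR⟩ := exists_isSylowIn_ge hX hXF
  obtain ⟨g, hg, rfl⟩ := hQ.exists_conj hR
  rw [map_conj_eq_of_mem_normalizer (hN hg)] at hXR
  exact hXR

/-- Inside a nilpotent subgroup, subgroups of prime-power orders for different primes commute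
elementwise. -/
theorem commute_of_isPGroup_of_nilpotent [Finite G] {p q : ℕ} [Fact p.Prime] [Fact q.Prime]
    (hpq : p ≠ q) {F X Y : Subgroup G} (hF : Group.IsNilpotent ↥F) (hX : IsPGroup p X)
    (hY : IsPGroup q Y) (hXF : X ≤ F) (hYF : Y ≤ F) :
    ∀ x ∈ X, ∀ y ∈ Y, x * y = y * x := by
  obtain ⟨P, hP, hXP⟩ := exists_isSylowIn_ge hX hXF
  obtain ⟨Q, hQ, hYQ⟩ := exists_isSylowIn_ge hY hYF
  have hPn : F ≤ Subgroup.normalizer (P : Set G) :=
    (Subgroup.le_normalizer).trans (normalizer_le_normalizer_sylIn_of_nilpotent hF hP)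
  have hQn : F ≤ Subgroup.normalizer (Q : Set G) :=
    (Subgroup.le_normalizer).trans (normalizer_le_normalizer_sylIn_of_nilpotent hF hQ)
  have hdisj : Disjoint P Q :=
    IsPGroup.disjoint_of_ne p q hpq P Q (sylIn_isPGroup hP) (sylIn_isPGroup hQ)
  intro x hx y hy
  have h1 : x * y * x⁻¹ * y⁻¹ ∈ P := by
    have h2 : y * x⁻¹ * y⁻¹ ∈ P :=
      (Subgroup.mem_normalizer_iff.mp (hPn (hYF hy)) x⁻¹).mp (P.inv_mem (hXP hx))
    have e : x * y * x⁻¹ * y⁻¹ = x * (y * x⁻¹ * y⁻¹) := by group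
    rw [e]
    exact P.mul_mem (hXP hx) h2
  have h2 : x * y * x⁻¹ * y⁻¹ ∈ Q := by
    have h3 : x * y * x⁻¹ ∈ Q :=
      (Subgroup.mem_normalizer_iff.mp (hQn (hXF hx)) y).mp (hYQ hy)
    exact Q.mul_mem h3 (Q.inv_mem (hYQ hy))
  have h3 : x * y * x⁻¹ * y⁻¹ ∈ P ⊓ Q := ⟨h1, h2⟩
  rw [hdisj.eq_bot, Subgroup.mem_bot] at h3
  have e : x * y = (x * y * x⁻¹ * y⁻¹) * (y * x) := by group
  rw [e, h3, one_mul]

end Cfsg.Agent.Lib.Helper78.BG
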